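import Cfsg.Agent.H20.J4.CD

/-! The classes of elements of order divisible by `5`. -/

set_option autoImplicit false
set_option linter.unusedSectionVars false
set_option maxRecDepth 100000
open Subgroup H16 H19 H0 H0.TR
namespace H20.J4
variable {G : Type*} [Group G]

theorem no_sq [Finite G] {U : Subgroup G} {r : ℕ} (hr : r.Prime) (h : Syl r U ⊤) (e : ∀ u ∈ U, u ^ r = 1) (x : G) :
    ¬ r * r ∣ orderOf x := fun d => by
  have o := orderOf_pow_orderOf_div (orderOf_pos x).ne' d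
  generalize x ^ _ = w at o
  obtain ⟨b, -, l⟩ := h.scj_le (K := zpowers w) le_top (PiN.of_isPGroup hr (.of_card (n := 2) (by rw [Nat.card_zpowers, o, sq])))
  have := orderOf_dvd_of_pow_eq_one (e _ (l (conj_mem_cj.2 (mem_zpowers w))))
  rw [show orderOf (b * w * b⁻¹) = _ from (MulAut.conj b).orderOf_eq w, o] at this
  have := Nat.le_of_dvd hr.pos this
  nlinarith [hr.two_le]
theorem two2 [Finite G] {S : Subgroup G} {j : G} (hj : j ∈ S) (h2 : j * j = 1) (h1 : j ≠ 1)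
    (h : ∀ x ∈ S, T2 x → x = 1 ∨ x ∈ cl S j) : ncl S T2 = 2 :=
  ncl_reps (fun i => if i = 0 then 1 else j) 2 (fun i _ => by split_ifs; exacts [⟨one_mem _, .one⟩, ⟨hj, .sq h2⟩])
    (fun i hi j hj c => by
      obtain rfl : i = 1 := by omega
      obtain rfl : j = 0 := by omega
      exact h1 (cl_one c))
    fun x hx e => (h x hx e).elim (fun e => ⟨0, by decide, e ▸ cl_self _ _⟩) fun e => ⟨1, by decide, e⟩
theorem cls_3 [Finite G] {S : Subgroup G} (h9 : ¬ 3 * 3 ∣ #S) {y w : G} (hy : y ∈ S) (o : orderOf y = 3) (hw : w ∈ S)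
    (ow : orderOf w = 3) : y ∈ cl S w ∨ y * y ∈ cl S w := by
  obtain ⟨a, ha, e⟩ := zp_conj (by norm_num) h9 hw hy ow o
  obtain ⟨i, hi, e⟩ := mem_zp_lt (by decide) (orderOf_dvd_iff_pow_eq_one.1 o.dvd) (e.le (conj_mem_cj.2 (mem_zpowers w)))
  interval_cases i
  · rw [pow_zero, conj_eq_one_iff] at e; simp [e] at ow
  exacts [.inl ⟨a, ha, e.trans (pow_one _)⟩, .inr ⟨a, ha, e.trans (sq _)⟩]
theorem app_lt {U V : List ℕ} {n : ℕ} (h1 : ∀ k ∈ U, k < n) (h2 : ∀ k ∈ V, k < n) : ∀ k ∈ U ++ V, k < n := fun k hk =>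
  (List.mem_append.1 hk).elim (h1 k) (h2 k)

namespace S5
variable [Finite G] {z p q : G} {Q N Q' : Subgroup G} {π μ : G → GPm} {g cq κ : ℕ → G} {e : ℕ}
  (h : S5 z p Q N π g cq Q' q μ κ e)
include h
theorem neH_ne {U V : List ℕ} (hU : ∀ k ∈ U, k < 8205) (hV : ∀ k ∈ V, k < 8205) (n : neH U V) :
    evA (hl g cq) U ≠ evA (hl g cq) V := fun e => by
  rcases n with ⟨c, -, hc, n⟩ | n
  · exact n (h.qc.inj _ (h.cjW hU hc).1 _ (h.cjW hV hc).1 (by rw [← (h.cjW hU hc).2, e, (h.cjW hV hc).2]))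
  · exact h.z1 (by simpa [e, h.qc.cz] using h.eqw' (by decide) n)
theorem pi_ord {x : G} (hx : x ∈ C[z]) {l : ℕ} (hl : l ∈ [5, 7, 11]) (o : orderOf x = l) : orderOf (π x) = l :=
  ord_map (by simp only [List.mem_cons, List.not_mem_nil, or_false] at hl; rcases hl with rfl | rfl | rfl <;> norm_num)
    (by rw [← h.pow hx, ← o, pow_orderOf_eq_one, h.one]) (fun e => by
      rw [← h.cQ, ← h.cN]; exact congrArg Subtype.val (pow_card_eq_one' (x := (⟨_, (h.ker _ hx).1 e⟩ : N)))) o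
    (by clear o; revert l; decide)
theorem no9 (x : G) : ¬ 3 * 3 ∣ orderOf x := no_sq (by norm_num) h.sylR (fun _ => h.R_3) x
end S5

namespace S6
variable [Finite G] {z p q : G} {Q N Q' : Subgroup G} {π μ : G → GPm} {g cq κ : ℕ → G} {e : ℕ}
  {φ : Equiv.Perm (Fin 5) →* G} (h : S6 z p Q N π g cq Q' q μ κ e φ)
include h
local notation "f" => φ c5'
local notation "w" => evA (hl g cq) X8
local notation "p'" => evA (hl g cq) P3
local notation "Y" => (C[f] ⊓ C[z] : Subgroup G)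
theorem yw_ev (a j e : ℕ) : evA (hl g cq) (yw a j e) = cq a * p' ^ j * w ^ e := by
  simp only [evA_append, evA_flat_rep, evA_cons, evA_nil, hl_hi, one_mul, mul_assoc]
theorem yw_lt {a : ℕ} (ha : a < 8192) (j e : ℕ) : ∀ k ∈ yw a j e, k < 8205 := by
  simp only [List.mem_append, List.mem_flatten, List.mem_replicate, List.mem_singleton]
  rintro k ((⟨_, ⟨-, rfl⟩, hk⟩ | ⟨_, ⟨-, rfl⟩, hk⟩) | rfl)
  exacts [ltAll_zero Y_ok.2.1 k hk, ltAll_zero Y_ok.1 k hk, by omega]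
theorem p_eq : p' = cq 1198 * p * (cq 1198)⁻¹ := by
  have := h.qmul (a := 1198) (b := 5294) (by decide) (by decide)
  rw [show qf 1198 5294 = 0 by decide +kernel, h.c0] at this
  rw [show P3 = [13 + 5294] ++ [9, 9, 9, 9] ++ [13 + 1198] from rfl, evA_append, evA_append, h.ev9,
    inv_eq_of_mul_eq_one_right this]
  simp only [evA_cons, evA_nil, hl_hi, one_mul, mul_assoc]
theorem op' : orderOf p' = 3 := h.p_eq ▸ ((MulAut.conj _).orderOf_eq p).trans h.p3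
theorem pf : p' ∈ C[f] := by
  have := h.eq0 Y_ok.2.2.1
  rw [evA_append, evA_append, h.f_eq] at this
  exact mem_cent1.2 this.symm
theorem Cp' : C[p'] ≤ C[z] := fun x hx => by
  have c := h.QH (h.qc.mem 1198)
  rw [h.p_eq, ← cj_cent1, mem_cj] at hx
  simpa [mul_assoc] using mul_mem (mul_mem c (h.NP (cent1_le_norm_zpowers p hx))) (inv_mem c)
theorem qY {a : ℕ} (ha : a ∈ QF) : cq a ∈ C[f] :=
  (h.ffix (Y_ok.2.2.2.2.2.2.2.2.2 a ha).1).2 (Y_ok.2.2.2.2.2.2.2.2.2 a ha).2.1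
theorem qF {c : G} (hc : c ∈ Q) (h1 : c ∈ C[f]) : ∃ a ∈ QF, cq a = c := by
  obtain ⟨a, ha, rfl⟩ := h.qc.surj c hc
  exact ⟨a, (QF_ok a ha).1 ((h.ffix ha).1 h1), rfl⟩
theorem ywY {a : ℕ} (ha : a ∈ QF) (j e : ℕ) : evA (hl g cq) (yw a j e) ∈ C[f] :=
  h.yw_ev a j e ▸ mul_mem (mul_mem (h.qY ha) (pow_mem h.pf j)) (pow_mem h.x8.1 e)
theorem wM : π w ∉ M22 := fun e => Y_ok.2.2.2.2.2.1 ((apA (kp_lt _) (by decide)).1
  (h.pi_hl (ltAll_zero Y_ok.2.1) ▸ (mem_M22.1 e).2))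
theorem dec {x : G} (hx : x ∈ Y) : ∃ a ∈ QF, ∃ j < 3, ∃ e < 2, ∃ i, x = evA (hl g cq) (yw a j e) * f ^ i := by
  have fz : f ∈ C[z] := h.CH h.fCU
  have o := h.pi_ord fz (by simp) h.o_f
  have pc : ∀ {x}, x ∈ Y → π x ∈ AA ⊓ C[π f] := fun {x} hx => ⟨h.mem _ hx.2, mem_cent1.2 (by
    rw [← h.mul _ hx.2 _ fz, ← h.mul _ fz _ hx.2, mem_cent1.1 hx.1])⟩
  have wY : w ∈ Y := ⟨h.x8.1, h.evH _⟩
  obtain ⟨e, he, i, e1⟩ : ∃ e < 2, ∃ i, π x = π (w ^ e * f ^ i) := by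
    have k := fun {a b} => two_iff (B := zpowers (π f)) (a := a) (b := b) (zpowers_le.2 (pc (mem_inf.2 ⟨mem_cent1_self _, fz⟩)))
      (by rw [Nat.card_zpowers, o]; exact centA (by simp) (h.mem _ fz) o)
    have fM : zpowers (π f) ≤ M22 := zpowers_le.2 ((mem_M22' (h.mem _ fz)).2 (by
      rw [← h.f_eq, h.pi_hl (W := F5) (nth_lt QW_ok.1 0)]; exact (apA (kp_lt _) (by decide)).2 (by decide +kernel)))
    by_cases l : π x ∈ zpowers (π f)
    · obtain ⟨i, e⟩ := mem_powers_iff_mem_zpowers.2 l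
      exact ⟨0, by decide, i, by rw [pow_zero, one_mul, h.pow fz]; exact e.symm⟩
    · obtain ⟨i, e⟩ := mem_powers_iff_mem_zpowers.2 ((k (inv_mem (pc wY)) (pc hx)).2
        (iff_of_false (fun l => h.wM (inv_mem_iff.1 (fM l))) l))
      exact ⟨1, by decide, i, by rw [pow_one, h.mul _ wY.2 _ (pow_mem fz i), h.pow fz, show π f ^ i = _ from e]; group⟩
  have hy : w ^ e * f ^ i ∈ Y := mul_mem (pow_mem wY e) (pow_mem (mem_inf.2 ⟨mem_cent1_self _, fz⟩) i)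
  obtain ⟨c, hc, j, hj, e2⟩ := h.toHy0.mem_N (h.div_mem hx.2 hy.2 e1)
  have c1 := h.qc.mem 1198
  have := pow_mod_n (mul_mem c1 (h.cjQ h.pH (inv_mem c1))) (h.le.norm h.pH) j
  rw [show cq 1198 * (p * (cq 1198)⁻¹ * p⁻¹) * p = p' by rw [h.p_eq]; group] at this
  have e3 : c * (p' ^ j * (p ^ j)⁻¹)⁻¹ = x * (w ^ e * f ^ i)⁻¹ * (p' ^ j)⁻¹ := by rw [e2]; group
  obtain ⟨a, ha, e4⟩ := h.qF (mul_mem hc (inv_mem this))
    (e3 ▸ mul_mem (mul_mem hx.1 (inv_mem hy.1)) (inv_mem (pow_mem h.pf j)))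
  exact ⟨a, ha, j, hj, e, he, i, by rw [h.yw_ev, e4, e3]; group⟩
theorem two15 : ncl (C[f] ⊓ C[p']) T2 = 2 := by
  have zf : z ∈ C[f] := mem_cent1_symm.1 (h.CH h.fCU)
  refine two2 ⟨zf, mem_cent1_symm.1 (h.evH _)⟩ h.zz h.z1 fun x hx h2 => ?_
  obtain ⟨a, ha, j, -, e, he, i, e1⟩ := h.dec ⟨hx.1, h.Cp' hx.2⟩
  obtain ⟨b, hb, e2⟩ := h.qF (h.cjQ (inv_mem (pow_mem (h.evH P3) j)) (h.qc.mem a))
    (mul_mem (mul_mem (inv_mem (pow_mem h.pf j)) (h.qY ha)) (inv_mem (inv_mem (pow_mem h.pf j))))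
  have e3 : x = p' ^ j * evA (hl g cq) (yw b 0 e) * f ^ i := by rw [e1, h.yw_ev, h.yw_ev, e2]; group
  have fp := mem_cent1_symm.1 h.pf
  obtain ⟨b1, -, -, -, k⟩ := Y_ok.2.2.2.2.2.2.2.2.2 b hb
  obtain ⟨rfl, e4⟩ := (k e he).1.resolve_left fun n => h.neH_ne (app_lt (ltAll_zero Y_ok.1) (h.yw_lt b1 0 e))
    (app_lt (h.yw_lt b1 0 e) (ltAll_zero Y_ok.1)) n (by
      rw [evA_append _ P3, evA_append _ _ P3, show evA (hl g cq) (yw b 0 e) = (p' ^ j)⁻¹ * x * (f ^ i)⁻¹ by rw [e3]; group]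
      exact mem_cent1.1 (mul_mem (mul_mem (inv_mem (pow_mem (mem_cent1_self _) j)) hx.2) (inv_mem (pow_mem fp i))))
  have hz : cq b ∈ zpowers z := h.mem_mod (mem_zpowers z) (a := 0) (by decide) b1 e4.symm (h.c0 ▸ one_mem _)
  rw [h.yw_ev, pow_zero, pow_zero, mul_one, mul_one] at e3
  have c : Commute p' f := mem_cent1.1 h.pf
  have o : (p' ^ j * f ^ i) ^ 15 = 1 := by
    rw [(c.pow_pow j i).mul_pow, pow_right_comm, pow_right_comm f, orderOf_dvd_iff_pow_eq_one.1 (h.op'.dvd.trans (by decide)),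
      orderOf_dvd_iff_pow_eq_one.1 (h.o_f.dvd.trans (by decide))]; simp
  rcases (mem_zpowers_inv h.zz).1 hz with e5 | e5 <;> rw [e5] at e3
  · rw [mul_one] at e3
    exact .inl (odd_two (e3 ▸ o) (by decide) h2)
  · rw [mem_cent1.1 (pow_mem (h.evH P3) j), mul_assoc] at e3
    rw [two_z (mem_cent1.1 (mul_mem (pow_mem (h.evH P3) j) (pow_mem (h.CH h.fCU) i))).symm (.sq h.zz) o (by decide)
      (e3 ▸ h2), mul_one] at e3
    exact .inr (e3 ▸ cl_self _ _)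
theorem sec3f {L : List ℕ} (hL : ∀ q ∈ L, q.Coprime 3) :
    ncl C[f] (ND L) = ncl (C[f] ⊓ C[p']) (ND (3 :: L)) + ncl C[f] (ND (3 :: L)) := by
  refine sec1 (by norm_num) hL h.pf h.op' (fun x _ => h.no9 x) fun x hx o =>
    (cls_3 (by rw [h.card5]; decide) h.pf h.op' hx o).elim id fun c => cl_trans c (cl_symm ⟨_, h.ywY (a := 712) (by decide) 0 1, ?_⟩)
  have := h.eq0 Y_ok.2.2.2.2.1
  rw [evA_append _ P3, evA_append _ _ P3, evA_append _ _ P3] at this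
  rw [this]; group
theorem two7 : ncl C[f] T2 = 7 := by
  let u : ℕ → G := fun i => evA (hl g cq) (nth [] [[], [4109], [437], [438], [726], yw 0 0 1, yw 1 0 1] i)
  have u0 : u 0 = 1 := rfl
  have uq : ∀ a, evA (hl g cq) [13 + a] = cq a := fun a => by simp [evA_cons, evA_nil, hl_hi]
  have u1 : u 1 = z := (uq 4096).trans h.qc.cz
  have zf : z ∈ C[f] := mem_cent1_symm.1 (h.CH h.fCU)
  obtain ⟨-, -, -, y1, -, -, y2, y3, y4, k⟩ := Y_ok
  have wY : w ∈ Y := ⟨h.x8.1, h.evH _⟩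
  have w2 : w * w = cq 425 := by simpa [evA_append, evA_nil] using h.eqw' (by decide) y1
  have l : ∀ i < 7, i ≠ 0 → u i ^ 2 ^ nth 0 [0, 0, 0, 1, 1, 2, 2] i = if i = 2 then cq 424 else z := fun i hi i0 => by
    interval_cases i
    · exact absurd rfl i0
    · exact (pow_one _).trans u1
    · exact (pow_one _).trans (uq 424)
    · exact ((congrArg (· ^ 2) (uq 425)).trans (by rw [sq, h.qmul (by decide) (by decide), y2])).trans h.qc.cz
    · exact ((congrArg (· ^ 2) (uq 713)).trans (by rw [sq, h.qmul (by decide) (by decide), y3])).trans h.qc.cz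
    · exact (congrArg (· ^ 4) ((h.yw_ev 0 0 1).trans (by simp [h.c0]))).trans (h.x8.2 1 (one_mem _))
    · exact (evA_flat_rep ..).symm.trans ((h.eqw' (by decide) y4).trans ((mul_one _).trans h.qc.cz))
  have l2 : ∀ i, (if i = 2 then cq 424 else z) * (if i = 2 then cq 424 else z) = 1 ∧ (if i = 2 then cq 424 else z) ≠ 1 := by
    intro i; split_ifs
    · rw [h.qmul (by decide) (by decide), show qf 424 424 = 0 by decide +kernel, ← h.c0]
      exact ⟨rfl, fun e => absurd (h.qc.inj _ (by decide) _ (by decide) e) (by decide)⟩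
    exact ⟨h.zz, h.z1⟩
  have cA : ∀ c ∈ Q, c ∈ C[f] → ∃ i < 7, c ∈ cl C[f] (u i) := fun c hc h1 => by
    obtain ⟨a, ha, rfl⟩ := h.qF hc h1
    obtain ⟨a1, -, ⟨v, hv, rfl⟩ | ⟨b, hb, j, -, e, -, k⟩, -⟩ := k a ha
    · rw [← h.vq' (by omega)]
      by_cases v0 : v = 0
      · exact ⟨0, by decide, by rw [v0, h.v0]; exact cl_self _ _⟩
      obtain ⟨b, hb, e⟩ := h.trU hv v0
      exact ⟨1, by decide, b, hb.1, u1 ▸ e⟩
    · have b1 : b ∈ QF := by clear * - hb; revert b; decide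
      have c : cq a ∈ cl C[f] _ := cl_symm ⟨_, h.ywY b1 j e, (h.cjW (h.yw_lt (by clear * - hb; revert b; decide) j e) a1).2⟩
      simp only [List.mem_cons, List.not_mem_nil, or_false] at k
      rcases k with k | k | k <;> rw [k, ← uq] at c
      exacts [⟨2, by decide, c⟩, ⟨3, by decide, c⟩, ⟨4, by decide, c⟩]
  have nw : w ∈ N(Q ⊓ C[f]) := norms_inf (zpowers_le.2 (h.le.norm wY.2)) (zpowers_le.2 (le_normalizer wY.1)) (mem_zpowers _)
  have w3 : w * w ∈ Q ⊓ C[f] := ⟨w2 ▸ h.qc.mem _, mul_mem wY.1 wY.1⟩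
  have TY : Q ⊓ C[f] ⊔ zpowers w ≤ Y := sup_le (fun _ hx => ⟨hx.2, h.QH hx.1⟩) (zpowers_le.2 wY)
  have sT : Syl 2 (Q ⊓ C[f] ⊔ zpowers w) C[f] := syl_card (k := 6) (m := 105) (by norm_num) (TY.trans inf_le_left) (by
    have c1 := card_step2 nw w3
    obtain ⟨m, c2⟩ := card_dvd_of_le (le_sup_left : Q ⊓ C[f] ≤ Q ⊓ C[f] ⊔ zpowers w)
    have c3 : m ≠ 1 := fun e => h.wM (h.piQ (mem_inf.1 ((eq_of_le_of_card_ge le_sup_left (by rw [c2, e, mul_one])).ge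
      (mem_sup_right (mem_zpowers w)))).1 ▸ one_mem _)
    have c4 := card_pos (Q ⊓ C[f] ⊔ zpowers w)
    rw [h.cQf] at c1 c2
    omega) h.card5 (by decide)
  have cB : ∀ c ∈ Q ⊓ C[f] ⊔ zpowers w, (∃ i < 7, c ∈ cl C[f] (u i)) ∨ ∃ v < 8, v ≠ 1 ∧ c * c = vc g cq v := fun c hc => by
    rcases step2_mem nw w3 hc with e | e
    · exact .inl (cA c e.1 e.2)
    obtain ⟨a, ha, e⟩ := h.qF e.1 e.2
    obtain rfl : evA (hl g cq) (yw a 0 1) = c := by rw [h.yw_ev, e]; group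
    obtain ⟨-, -, -, ⟨v, hv, v1, k⟩ | ⟨b, hb, c, hc, k⟩, -⟩ := k a ha
    · exact .inr ⟨v, hv, v1, by
        rw [h.vq' (by omega), ← evA_append, h.eqw' ((by decide +kernel : ∀ v < 8, vq v < 8192) v hv) k, evA_nil, mul_one]⟩
    · have := h.eq0 k
      rw [evA_append _ _ [_], evA_append _ [_], uq] at this
      refine .inl ⟨5 + c, by omega, cl_symm ⟨_, h.qY hb, ?_⟩⟩
      rw [this, mul_inv_cancel_right]; interval_cases c <;> rfl
  have uf' : ∀ a ∈ QF, evA (hl g cq) [13 + a] ∈ C[f] := fun a ha => (uq a).symm ▸ h.qY ha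
  have uf : ∀ i < 7, u i ∈ C[f] := fun i hi => by
    interval_cases i
    exacts [one_mem _, u1 ▸ zf, uf' 424 (by decide), uf' 425 (by decide), uf' 713 (by decide), h.ywY (by decide) 0 1, h.ywY (by decide) 0 1]
  refine ncl_reps u 7 (fun i hi => ⟨uf i hi, ?_⟩) (fun i hi j hj c => ?_) fun x hx h2 => ?_
  · by_cases i0 : i = 0
    exacts [i0 ▸ .one, .of (l i hi i0) (l2 i).1]
  · have o := fun i hi i0 => ord_lev (l i hi i0) (l2 i).1 (l2 i).2
    have o1 := cl_ord c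
    rw [o i hi (by omega)] at o1
    obtain rfl | j0 : j = 0 ∨ j ≠ 0 := em _
    · rw [u0, orderOf_one, pow_succ] at o1; omega
    rw [o j (by omega) j0, Nat.pow_right_inj (by decide), Nat.add_right_cancel_iff] at o1
    obtain ⟨rfl, rfl⟩ | hij : (i = 2 ∧ j = 1) ∨ (i = 4 ∧ j = 3) ∨ (i = 6 ∧ j = 5) := by
      clear * - hi hj o1 j0; revert o1; interval_cases i <;> interval_cases j <;> first | omega | decide
    · exact h.t_ncj ((u1 ▸ cl_conj c).trans ((uq 424).symm ▸ h.clq2 (by decide) (by decide +kernel) :).symm)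
    obtain ⟨a, ha, e⟩ := c
    have e1 := congrArg (· ^ 2 ^ nth 0 [0, 0, 0, 1, 1, 2, 2] i) e
    simp only [conj_pow] at e1
    rw [l i hi (by omega), o1, l j (by omega) j0, if_neg (by omega), if_neg (by omega), mul_inv_eq_iff_eq_mul] at e1
    obtain ⟨b, hb, s, hs, t, ht, n, rfl⟩ := h.dec ⟨ha, mem_cent1.2 e1⟩
    obtain ⟨b1, -, -, -, k⟩ := k b hb
    obtain ⟨k1, k2⟩ := (k t ht).2 s hs
    rw [show ∀ a b c : G, a * b * c * (a * b)⁻¹ = a * (b * c * b⁻¹) * a⁻¹ from fun _ _ _ => by group,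
      mem_cent1.1 (pow_mem (mem_cent1_symm.1 (uf j (by omega))) n), mul_inv_cancel_right] at e
    rcases hij with ⟨rfl, rfl⟩ | ⟨rfl, rfl⟩
    · obtain ⟨l1, e2⟩ := h.cjW (h.yw_lt b1 s t) (a := 425) (by decide)
      exact k1 (h.qc.inj _ l1 _ (by decide) (by rw [← e2, ← uq, ← uq]; exact e))
    · refine h.neH_ne (app_lt (h.yw_lt (by decide) 0 1) (h.yw_lt b1 s t)) (app_lt (h.yw_lt b1 s t) (h.yw_lt (by decide) 0 1))
        k2 ?_
      rw [evA_append _ (yw 0 0 1), evA_append _ _ (yw 1 0 1)]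
      exact mul_inv_eq_iff_eq_mul.1 e
  · obtain ⟨b, hb, e⟩ := h2.syl hx sT
    have tr : ∀ {b x}, b ∈ C[f] → (∃ i < 7, b * x * b⁻¹ ∈ cl C[f] (u i)) → ∃ i < 7, x ∈ cl C[f] (u i) :=
      fun hb ⟨i, hi, c⟩ => ⟨i, hi, cl_trans c (cl_symm ⟨_, hb, rfl⟩)⟩
    refine tr hb ((cB _ e).elim id fun ⟨v, hv, _, e1⟩ => ?_)
    have hy := (TY e).1
    generalize b * x * b⁻¹ = y at *
    by_cases v0 : v = 0
    · obtain ⟨b, hb, e⟩ := h.outU ⟨hy, h.c5_le hy⟩ (by rw [e1, v0, h.v0])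
      exact tr (inv_mem hb.1) (cA _ (by rwa [inv_inv]) (mul_mem (mul_mem (inv_mem hb.1) hy) (inv_mem (inv_mem hb.1))))
    obtain ⟨b, hb, e⟩ := h.trU hv v0
    have e2 : b⁻¹ * y * b⁻¹⁻¹ * (b⁻¹ * y * b⁻¹⁻¹) = z := by rw [conj_mul, e1, ← e]; group
    obtain ⟨c, hc, e3⟩ := (T2.of (m := 1) ((pow_two _).trans e2) h.zz).syl (mem_inf.2 ⟨mul_mem (mul_mem (inv_mem hb.1) hy)
      (inv_mem (inv_mem hb.1)), mem_cent1.2 (by rw [← e2]; group)⟩) (sT.of_le TY inf_le_left)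
    refine tr (inv_mem hb.1) (tr hc.1 ((cB _ e3).resolve_right fun ⟨v, hv, v1, e4⟩ => v1 ?_))
    rw [conj_mul, e2, mem_cent1.1 hc.2, mul_inv_cancel_right, ← h.v1] at e4
    exact (h.vinj _ (by decide) _ (by omega) e4).symm
end S6
end H20.J4
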