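import Cfsg.Agent.H20.J4.MB

/-! The Sylow normalizers for the large primes. -/

set_option autoImplicit false
set_option linter.unusedSectionVars false
set_option maxRecDepth 100000
open Subgroup H16 H19 H0 H0.TR MulAction
namespace H20.J4
variable {G : Type*} [Group G]
local notation "cj" => H19.cj

def D4 : List ℕ := [1, 29, 31, 37, 43, 899, 1073, 1147, 1247, 1333, 1591, 33263, 38657, 46139, 49321, 1430309]
theorem dv4 {c : ℕ} (h : c ∣ 29 * (31 * (37 * 43))) : c ∈ D4 := by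
  obtain ⟨a, _, h1, k, rfl⟩ := Nat.dvd_mul.1 h
  obtain ⟨b, _, h2, l, rfl⟩ := Nat.dvd_mul.1 k
  obtain ⟨c, d, h3, h4, rfl⟩ := Nat.dvd_mul.1 l
  rw [Nat.dvd_prime (by norm_num)] at h1 h2 h3 h4
  rcases h1 with rfl | rfl <;> rcases h2 with rfl | rfl <;> rcases h3 with rfl | rfl <;> rcases h4 with rfl | rfl <;> decide
def OP (r : ℕ) : List (ℕ × ℕ) := if r = 29 then [(29, 28), (899, 14), (1247, 2), (38657, 1)] else if r = 31 then
  [(31, 10), (1333, 6), (49321, 1), (1430309, 15)] else if r = 37 then [(37, 12), (1591, 2), (46139, 9), (49321, 12)] else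
  [(43, 14), (1247, 42), (1333, 6), (49321, 42)]
theorem syl_big [Finite G] {r k : ℕ} (H : r.Prime ∧ ¬ r * r ∣ Nat.card G ∧ r ∣ Nat.card G)
    (h : ∀ x : G, orderOf x = r → #C[x] = r ∧ #N(zpowers x) = k) (U : Sylow r G) :
    C((U : Subgroup G)) = U ∧ #N((U : Subgroup G)) = k := by
  obtain ⟨hr, h2, h1⟩ := H
  replace hr := Fact.mk hr
  obtain ⟨x, ox⟩ := exists_prime_orderOf_dvd_card' r h1
  obtain ⟨S, e⟩ := syl_zp ox h2
  have c : #(U : Subgroup G) = r := by rw [Nat.card_congr (U.equiv S).toEquiv, e, Nat.card_zpowers, ox]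
  obtain ⟨y, hy, oy⟩ := exists_orderOf_eq_prime hr.out c.symm.dvd
  rw [← eq_zpowers_of_prime (c.symm ▸ hr.out) hy fun e => hr.out.one_lt.ne (by rw [← oy, e, orderOf_one]), cent_zpowers]
  exact ⟨(eq_of_le_of_card_ge (zpowers_le.2 (mem_cent1_self y)) (by rw [(h y oy).1, Nat.card_zpowers, oy])).symm, (h y oy).2⟩

namespace S6
variable [Finite G] [IsSimpleGroup G] {z p q : G} {Q N Q' : Subgroup G} {π μ : G → GPm} {g cq κ : ℕ → G} {e : ℕ}
  {φ : Equiv.Perm (Fin 5) →* G} (h : S6 z p Q N π g cq Q' q μ κ e φ)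
include h
theorem opt {r : ℕ} (hr : r ∈ [29, 31, 37, 43]) {x : G} (o : orderOf x = r) :
    ∃ d ∈ OP r, #C[x] = d.1 ∧ #N(zpowers x) = d.1 * d.2 := by
  have k0 : ∀ l : ℕ, l.Prime → (∀ y : G, orderOf y = l → #C[y] ∣ 2 ^ 3 * 3 * 11 ^ 3 * 23) → (#C[x]).Coprime l := fun l hl k =>
    ((Nat.Prime.coprime_iff_not_dvd hl).2 fun d => by
      obtain ⟨y, hy, oy⟩ := exists_orderOf_eq_prime hl d
      exact (by decide : ∀ r ∈ [29, 31, 37, 43], ¬ r ∣ 2 ^ 3 * 3 * 11 ^ 3 * 23) r hr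
        (o ▸ (orderOf_dvd_card' (mem_cent1_symm.1 hy)).trans (k y oy))).symm
  have d1 := h.cnd (x := x) (o ▸ (by decide : ∀ r ∈ [29, 31, 37, 43], ¬ r ∣ 2 ^ 21 * 3 ^ 3 * 5 * 7 * 11) r hr)
  have d2 := k0 11 (by norm_num) fun y oy => by
    obtain ⟨x, -, cx, cy, k⟩ := h.cls11
    rcases k y oy with e | e <;> obtain ⟨a, e⟩ := isConj_iff.1 e <;> rw [← card_cj a, cj_cent1, e]
    exacts [cx.dvd.trans (by decide), cy.dvd.trans (by decide)]
  have d3 := k0 23 (by norm_num) fun y oy => (h.x23 oy).1.dvd.trans (by decide)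
  have d4 := dv4 (((d1.mul_right (d2.pow_right 3)).mul_right d3).dvd_of_dvd_mul_left
    ((card_subgroup_dvd_card C[x]).trans (by rw [h.card]; decide)))
  obtain ⟨k, m, c1, c2, c3, c4⟩ := nz_card ((by norm_num : ∀ r ∈ [29, 31, 37, 43], r.Prime) r hr) o
    (h.card ▸ (by decide : ∀ r ∈ [29, 31, 37, 43], ¬ r * r ∣ 86775571046077562880) r hr)
  have c5 : k < r := (Nat.le_of_dvd (by simp at hr; omega) c1).trans_lt (by simp at hr; omega)
  refine ⟨(_, k), (by decide +kernel : ∀ r ∈ [29, 31, 37, 43], ∀ c ∈ D4, ∀ k < r, k ∣ r - 1 → r ∣ c →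
    86775571046077562880 / (c * k) % r = 1 % r → (c, k) ∈ OP r) r hr _ d4 k c5 c1 (o ▸ orderOf_dvd_card' (mem_cent1_self x)) (by
      rw [← h.card, ← c3, c2, Nat.mul_div_cancel_left _ (card_pos _), c4]), rfl, c2.symm⟩
theorem big : ∀ d ∈ [(29, 28), (31, 10), (37, 12), (43, 14)], ∀ x : G, orderOf x = d.1 → #C[x] = d.1 ∧ #N(zpowers x) = d.1 * d.2 := by
  have sy : ∀ {x : G} (l : ℕ), l.Prime → l ∣ #C[x] → ∃ y ∈ C[x], orderOf y = l ∧ orderOf x ∣ #C[y] := fun l hl d =>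
    have ⟨y, hy, oy⟩ := exists_orderOf_eq_prime hl d
    ⟨y, hy, oy, orderOf_dvd_card' (mem_cent1_symm.1 hy)⟩
  have c31 : ∀ x : G, orderOf x = 31 → #C[x] = 31 ∧ #N(zpowers x) = 31 * 10 := fun x o => by
    obtain ⟨-, -, -, k⟩ := h.isoB
    obtain ⟨-, -, -, -, -, -, -, -, -, -, -, c1, c2, c3, c4⟩ := cA_c
    have n : ∀ W, ltAll 8 W = 0 → apW PB W 1 ≠ 1 → evA (gb g cq κ) W ≠ 1 := fun W l e e1 => by
      obtain ⟨e2, e3⟩ := act_cj h.actB (ltAll_zero l) (a := 1) (by decide)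
      exact e (h.pinj _ e2 _ (by decide) (by simpa [e1] using e3.symm))
    have o5 := ord_rp (by norm_num) (k (rp 5 NW) [] (by decide +kernel)) (n _ (by decide +kernel) (by decide +kernel))
    obtain ⟨a, e⟩ := prime_cj (by norm_num) (by rw [h.card]; decide) ((Nat.card_zpowers x).trans o)
      (ord_rp (by norm_num) (k _ _ c3) (n _ c2 c1))
    have d5 := orderOf_dvd_card' (norm_zp (j := 2) (by simpa only [evA_append, evA_flat_rep] using k _ _ c4))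
    rw [o5, ← card_cj a, cj_norm, e] at d5
    obtain ⟨d, hd, e1, e2⟩ := h.opt (by simp) o
    rw [e2] at d5 ⊢
    rcases (by decide : ∀ d ∈ OP 31, 5 ∣ d.1 * d.2 → d = (31, 10) ∨ d = (1430309, 15)) d hd d5 with rfl | rfl
    · exact ⟨e1, rfl⟩
    obtain ⟨y, hy, oy, -⟩ := sy 29 (by norm_num) (by rw [e1]; decide)
    obtain ⟨k, m, c1, c2, c3, c4⟩ := nzS (by norm_num) hy oy (by rw [e1]; decide)
    obtain ⟨d, hd, e3, -⟩ := h.opt (by simp) oy
    obtain rfl := (by decide : ∀ m ∈ D4, m % 29 = 1 % 29 → m = 1) m (dv4 (Dvd.intro_left _ (c3.trans e1))) c4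
    rcases (Nat.Prime.dvd_mul (p := 37) (by norm_num)).1 (by rw [c2, ← mul_one #_, c3, e1]; decide) with t | t
    · exact absurd (e3 ▸ t.trans (card_dvd inf_le_right)) ((by decide : ∀ d ∈ OP 29, ¬ 37 ∣ d.1) d hd)
    · exact absurd (t.trans c1) (by decide)
  have n31 : ∀ r ∈ [29, 37, 43], ∀ x : G, orderOf x = r → ¬ 31 ∣ #C[x] := fun r hr x o d => by
    obtain ⟨y, -, oy, e⟩ := sy 31 (by norm_num) d
    rw [(c31 y oy).1, o] at e
    exact (by decide : ∀ r ∈ [29, 37, 43], ¬ r ∣ 31) r hr e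
  have c43 : ∀ x : G, orderOf x = 43 → #C[x] = 43 ∧ #N(zpowers x) = 43 * 14 := fun x o => by
    obtain ⟨d, hd, e1, e2⟩ := h.opt (by simp) o
    rcases (by decide : ∀ d ∈ OP 43, ¬ 31 ∣ d.1 → d = (43, 14) ∨ d = (1247, 42)) d hd (e1 ▸ n31 43 (by simp) x o) with rfl | rfl
    · exact ⟨e1, e2⟩
    obtain ⟨y, hy, oy, t⟩ := sy 29 (by norm_num) (by rw [e1]; decide)
    obtain ⟨k, m, -, -, c3, c4⟩ := nzS (by norm_num) (cent1_le_norm_zpowers x hy) oy (by rw [e2]; decide)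
    obtain ⟨d, hd, e3, e4⟩ := h.opt (by simp) oy
    obtain rfl := (by decide : ∀ d ∈ OP 29, ¬ 31 ∣ d.1 → 43 ∣ d.1 → d = (1247, 2)) d hd (e3 ▸ n31 29 (by simp) y oy) (e3 ▸ o ▸ t)
    have := (by decide +kernel : ∀ j ∈ Nat.divisors 2494, 52374 / j % 29 ≠ 1) _ (Nat.mem_divisors.2
      ⟨(card_dvd (inf_le_right (a := N(zpowers x)))).trans e4.dvd, by decide⟩)
    rw [show 52374 = _ from (c3.trans e2).symm, Nat.mul_div_cancel_left _ (card_pos _)] at this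
    exact absurd c4 this
  have k : ∀ r ∈ [29, 37], ∀ x : G, orderOf x = r → ∃ d ∈ OP r, ¬ 31 ∣ d.1 ∧ ¬ 43 ∣ d.1 ∧ #C[x] = d.1 ∧
      #N(zpowers x) = d.1 * d.2 := fun r hr x o => by
    obtain ⟨d, hd, e1, e2⟩ := h.opt (by simp at hr ⊢; omega) o
    refine ⟨d, hd, e1 ▸ n31 r (by simp at hr ⊢; omega) x o, fun t => ?_, e1, e2⟩
    obtain ⟨y, -, oy, e⟩ := sy 43 (by norm_num) (e1 ▸ t)
    rw [(c43 y oy).1, o] at e
    exact (by decide : ∀ r ∈ [29, 37], ¬ r ∣ 43) r hr e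
  simp only [List.forall_mem_cons]
  refine ⟨fun x o => ?_, c31, fun x o => ?_, c43, by simp⟩ <;> obtain ⟨d, hd, t1, t2, t⟩ := k _ (by simp) x o
  · rwa [(by decide : ∀ d ∈ OP 29, ¬ 31 ∣ d.1 → ¬ 43 ∣ d.1 → d = (29, 28)) d hd t1 t2] at t
  · rwa [(by decide : ∀ d ∈ OP 37, ¬ 31 ∣ d.1 → ¬ 43 ∣ d.1 → d = (37, 12)) d hd t1 t2] at t
end S6

end H20.J4
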