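import Cfsg.Agent.H20.J4.LG
import Cfsg.Agent.S0732

/-! The subgroup `PGL₂(23)`. -/

set_option autoImplicit false
set_option linter.unusedSectionVars false
set_option maxRecDepth 100000
open Subgroup H16 H19 H0 H0.TR MulAction
namespace H20.J4
variable {G : Type*} [Group G]
local notation "cj" => H19.cj

theorem pgl23 [Finite G] (c : Nat.card G = 24 * 23 * 22) (h : ∀ u : G, orderOf u = 23 → #C[u] ≤ 23) :
    Nonempty (G ≃* Matrix.ProjGenLinGroup (Fin 2) (ZMod 23)) := by
  classical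
  obtain ⟨u, -, o⟩ := exists_orderOf_eq_prime (H := (⊤ : Subgroup G)) (p := 23) (by norm_num) (by rw [card_top, c]; decide)
  have n : ¬ 23 * 23 ∣ Nat.card G := by rw [c]; decide
  obtain ⟨k, m, c1, c2, c3, c4⟩ := nz_card (by norm_num) o n
  have e : zpowers u = C[u] := eq_of_le_of_card_ge (zpowers_le.2 (mem_cent1_self u)) (by
    rw [Nat.card_zpowers, o]; exact h u o)
  have c5 := N(zpowers u).card_mul_index
  rw [← e, Nat.card_zpowers, o] at c2
  rw [← c2, c] at c3 c5
  have d := Nat.le_of_dvd (by decide) c1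
  have i : N(zpowers u).index = 24 := by interval_cases k <;> omega
  have k1 : N(zpowers u).normalCore = ⊥ := by
    have l := N(zpowers u).normalCore_le
    by_cases hu : u ∈ N(zpowers u).normalCore
    · have : N(zpowers u) = ⊤ := top_unique fun x _ => by
        obtain ⟨a, ha, e⟩ := zp_conj (by norm_num) (fun d => n (d.trans (card_subgroup_dvd_card _))) (l hu)
          (l (Normal.conj_mem inferInstance u hu x)) o ((orderOf_conj' _ _).trans o)
        exact mem_norm_iff_cj.2 (by rw [cj_zpowers, ← e, cj_of_mem_norm ha])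
      simp [this] at i
    have d := (inf_comm _ _).trans (inf_eq_bot_of_prime (by rw [Nat.card_zpowers, o]; norm_num) (mt zpowers_le.1 hu))
    rwa [inf_eq_left.2 ((cents_of_norms_disjoint le_normalizer_of_normal l d).trans ((cent_zpowers u).trans e.symm).le)] at d
  have := Fintype.ofFinite (G ⧸ N(zpowers u))
  have inj : Function.Injective (toPermHom G (G ⧸ N(zpowers u))) :=
    (MonoidHom.ker_eq_bot_iff _).1 ((normalCore_eq_ker _).symm.trans k1)
  have : IsPretransitive (toPermHom G (G ⧸ N(zpowers u))).range (G ⧸ N(zpowers u)) := ⟨fun a b =>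
    have ⟨x, e⟩ := exists_smul_eq G a b; ⟨⟨_, x, rfl⟩, e⟩⟩
  rcases Cfsg.Agent.S0732.result (p := 23) (d := 22) (by norm_num) (Nat.card_eq_fintype_card.symm.trans i)
    (toPermHom G (G ⧸ N(zpowers u))).range ((Nat.card_congr (MonoidHom.ofInjective inj).toEquiv).symm.trans c)
    (by decide) with ⟨-, ⟨f⟩⟩ | ⟨e, -⟩ | ⟨q, -, e, e1 | rfl, -⟩
  exacts [⟨(MonoidHom.ofInjective inj).trans f⟩, by omega, by omega, by omega]

theorem S6.pgl [Finite G] [IsSimpleGroup G] {z p q : G} {Q N Q' : Subgroup G} {π μ : G → GPm} {g cq κ : ℕ → G} {e : ℕ}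
    {φ : Equiv.Perm (Fin 5) →* G} (h : S6 z p Q N π g cq Q' q μ κ e φ) :
    ∃ K : Subgroup G, Nonempty (K ≃* Matrix.ProjGenLinGroup (Fin 2) (ZMod 23)) := by
  obtain ⟨w, c, cov⟩ := h.two
  have c0 := h.cM
  generalize N(VV g cq) = M at *
  have hw : w ∉ M := fun e => by rw [cj_of_mem e, inf_idem] at c; omega
  obtain ⟨a, ha, b, hb, e⟩ := ((cov w⁻¹).resolve_left (by simpa)).resolve_right fun e => e 11 (by simp) (by
    rw [← card_cj w, cj_inf, cj_cj_inv, inf_comm, c]; decide)
  have k : w * a * w ∈ M := by simpa [mul_assoc, mul_eq_one_iff_eq_inv.1 (by rw [← mul_inv_cancel w, e]; group :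
    w * (a * w) * b = 1)] using hb
  have hn : w * a ∈ N(cj w M ⊓ M) := mem_norm_iff_cj.2 (by
    rw [cj_inf, ← cj_mul, cj_of_mem k, cj_mul, cj_of_mem ha, inf_comm])
  have c1 := card_step2 hn ⟨mem_cj.2 (by simpa [mul_assoc] using mul_mem ha k), by simpa [mul_assoc] using mul_mem k ha⟩
  have c2 := card_lt (lt_of_le_of_ne (le_sup_left : cj w M ⊓ M ≤ _ ⊔ zpowers (w * a)) fun e =>
    hw ((mul_mem_cancel_right ha).1 (e.ge (mem_sup_right (mem_zpowers _))).2))
  obtain ⟨i, c3⟩ := card_dvd (le_sup_left : cj w M ⊓ M ≤ _ ⊔ zpowers (w * a))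
  rw [c] at c1 c2 c3
  refine ⟨cj w M ⊓ M ⊔ zpowers (w * a), pgl23 (by omega) fun u o => ?_⟩
  rw [← (h.x23 ((orderOf_coe u).trans o)).1, ← card_map_of_injective (subtype_injective _)]
  exact card_le (by rintro _ ⟨x, hx, rfl⟩; exact mem_cent1.2 (congrArg Subtype.val (mem_cent1.1 hx)))

end H20.J4
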