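import Cfsg.Agent.H20.J4.CC

/-! The classes of `2`-elements of `6.M₂₂`. -/

set_option autoImplicit false
set_option linter.unusedSectionVars false
set_option maxRecDepth 100000
open Subgroup H16 H19 H0 H0.TR
namespace H20.J4
variable {G : Type*} [Group G]

theorem T2.mul {a b : G} (c : Commute a b) (ha : T2 a) (hb : T2 b) : T2 (a * b) := by
  obtain ⟨m, e⟩ := ha
  obtain ⟨n, e'⟩ := hb
  exact ⟨m + n, by rw [c.mul_pow, pow_add, pow_mul, e, mul_comm, pow_mul, e']; simp⟩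
theorem T2.pow {a : G} (h : T2 a) (n : ℕ) : T2 (a ^ n) := h.imp fun m e => by rw [pow_right_comm, e, one_pow]
theorem T2.sq {a : G} (h : a * a = 1) : T2 a := ⟨1, by rw [pow_one, pow_two, h]⟩
theorem T2.one : T2 (1 : G) := ⟨0, one_pow _⟩
theorem cent_a0 {X E : List (List ℕ)} {n : ℕ} (hX : allL (ltAll 13) X = true) (hE : allL (ltAll 13) E = true)
    (c : C(gen (wds (sub a0 13) X) 1) = gen (wds (sub a0 13) E) n) {y : GPm} (hy : y ∈ AA)
    (e : y * wds a0 X 0 = wds a0 X 0 * y) : y ∈ gen (wds a0 E) n := by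
  have : (⟨y, hy⟩ : gen a0 13) ∈ gen (wds (sub a0 13) E) n := c ▸ le_cent1_iff.1 (gen_le.2 fun i hi =>
    mem_cent1.2 (Subtype.ext (by simpa [sub_wds a0 hX, show i = 0 by omega] using e.symm)))
  have := mem_map_of_mem (gen a0 13).subtype this
  rwa [map_gen, show (fun k => (gen a0 13).subtype (wds (sub a0 13) E k)) = wds a0 E from
    funext fun k => sub_wds a0 hE k] at this
theorem lev_pow {r : ℕ} (hr : r < 10) : evA a0 (nth [] RA2 r) ^ 2 ^ nth 0 OW r = 1 := by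
  have : ∀ r < 10, eqL A0.P 13 A0.B (rp (2 ^ nth 0 OW r) (nth [] RA2 r)) [] = 0 := by decide +kernel
  simpa [evA_flat_rep, evA_nil] using a0_eq' (this r hr)
theorem cent8 : M22 ⊓ C[evA a0 (nth [] RA2 4)] = zpowers (evA a0 (nth [] RA2 4)) := by
  obtain ⟨-, -, -, -, o1, o2, o3, -⟩ := K0_ok
  have c := (card_cent_sub _).symm.trans (c8 mdA)
  rw [sub_wds a0 a8_lt] at c
  have o : orderOf (evA a0 (nth [] RA2 4)) = 2 ^ (2 + 1) :=
    orderOf_eq_prime_pow (fun e => absurd (lev_le (by decide) e) (by decide)) (lev_pow (r := 4) (by decide))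
  refine (eq_of_card_lt (zpowers_le.2 (mem_inf.2 ⟨gen_a11 ▸ evA_mem_gen _ (by decide), mem_cent1_self _⟩)) ?_).symm
  rw [Nat.card_zpowers, o]
  refine (lt_of_le_of_ne (card_le_of_le (inf_le_inf_right _ M22_le)) fun e => o2 ?_).trans_eq c
  replace e := eq_of_le_of_card_ge (inf_le_inf_right _ M22_le) e.ge
  have := a0_eq' o3
  rw [evA_append, evA_append] at this
  exact (apA (ltAll_zero o1) (by decide)).1 (mem_M22.1 (e.ge ⟨evA_mem_gen _ (ltAll_zero o1), mem_cent1.2 this⟩).1).2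

namespace S5
variable [Finite G] {z p q : G} {Q N Q' : Subgroup G} {π μ : G → GPm} {g cq κ : ℕ → G} {e : ℕ}
  (h : S5 z p Q N π g cq Q' q μ κ e)
include h
local notation "kk" r => evA (hl g cq) (nth [] RA2 r)

theorem Cp : C[p] = h.K0 := h.K_eq ▸ (inf_eq_right.2 ((cent1_le_norm_zpowers p).trans h.NP)).symm
theorem zK : z ∈ h.K0 := h.K_eq.le ⟨mem_cent1_self z, mem_cent1_symm.1 h.pH⟩
theorem lift_comm {a y k : G} (ha : a ∈ h.K0) (hy : y ∈ C[z] ⊓ N(zpowers p)) (hk : k ∈ h.K0) (c : y ∈ C[k])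
    (e : π a = π y) : a * k * a⁻¹ = k := by
  obtain ⟨j, e1⟩ := h.KN h.fpf (mul_mem ha.1.2 (inv_mem hy.2)) (h.div_mem ha.1.1 hy.1 e)
  rw [mul_inv_eq_iff_eq_mul] at e1 ⊢
  exact mem_cent1.1 (e1 ▸ mul_mem (Subgroup.pow_mem _ (mem_cent1.2 (h.K0_comm h.fpf hk).symm) j) c)
theorem nzK {r : ℕ} (hr : r ∈ [0, 1, 2, 4]) : (kk r) * z ∉ cl h.K0 (kk r) := by
  have r5 : r < 5 := by revert r; decide
  rintro ⟨a, ha, e⟩
  have n : a * (kk r) * a⁻¹ ≠ kk r := fun e' => h.z1 (by simpa [e'] using e.symm)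
  have e1 := congrArg π e
  rw [h.conj ha.1.1 (h.evH _), h.mul _ (h.evH _) _ (mem_cent1_self z), h.piQ h.zQ, mul_one, h.kpi (by omega),
    mul_inv_eq_iff_eq_mul] at e1
  obtain ⟨t1, t2, -, -, -, -, -, l⟩ := K0_ok
  simp only [List.mem_cons, List.not_mem_nil, or_false] at hr
  rcases hr with rfl | rfl | rfl | rfl
  · exact n (by rw [show (kk 0) = 1 from rfl]; simp)
  · rw [show (kk 1) = vc g cq (2 ^ 7) from (h.vb (i := 7) (by decide)).symm, ← h.v1, ← h.vx] at e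
    exact absurd ((t2.symm.trans (h.tyV_cj (by decide) (by decide) e)).trans t1) (by decide)
  · have : gen (wds a0 c4ce_W) 4 ≤ h.img (C[z] ⊓ N(zpowers p) ⊓ C[kk 2]) := gen_le.2 fun k hk => by
      have := h.eq0 (l k hk _ List.mem_cons_self)
      have l1 : ∀ k < 4, nth 0 EJ k = 0 ∧ ltAll 12 (nth [] c4ce_W k) = 0 ∧ J4.kp (nth [] c4ce_W k) = nth [] c4ce_W k := by
        decide +kernel
      obtain ⟨l1, l2, l3⟩ := l1 k hk
      rw [l1, List.replicate_zero, List.append_nil, evA_append, evA_append] at this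
      refine h.mem_img.2 ⟨_, ⟨⟨h.evH _, evA_mem _ fun j hj => ?_⟩, mem_cent1.2 this⟩, h.evH _, ?_⟩
      · rcases (by have := ltAll_zero l2 j hj; omega : j < 11 ∨ j = 11) with hj | rfl
        · simpa [evA_cons, evA_nil] using (h.gK (W := [j]) (by simpa)).1.2
        · exact h.g11N
      · rw [h.pi_hl fun j hj => (ltAll_zero l2 j hj).trans (by decide), l3]; rfl
    obtain ⟨y, hy, -, e2⟩ := h.mem_img.1 (this (cent_a0 c4x_lt c4ce_lt (c4c_eq mdA).1 (M22_le ha.2) e1))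
    exact n (h.lift_comm ha hy.1 (h.kK r5) hy.2 e2.symm)
  · obtain ⟨m, e2⟩ := mem_powers_iff_mem_zpowers.2 (cent8.le ⟨ha.2, mem_cent1.2 e1⟩)
    refine n (h.lift_comm ha (Subgroup.pow_mem _ (h.kK r5).1 m) (h.kK r5) (Subgroup.pow_mem _ (mem_cent1_self _) m) ?_)
    rw [h.pow (h.evH _), h.kpi (by decide)]; exact e2.symm
theorem clz {S : Subgroup G} (hS : S ≤ C[z]) {a b : G} (c : b ∈ cl S a) : b * z ∈ cl S (a * z) := by
  obtain ⟨x, hx, rfl⟩ := c
  exact ⟨x, hx, by rw [← mul_assoc, mul_assoc _ z, ← mem_cent1.1 (inv_mem (hS hx)), ← mul_assoc]⟩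
theorem k3z : (kk 3) * z ∈ cl h.K0 (kk 3) := by
  have := h.eqw' (by decide) K0_ok.2.2.2.1
  rw [evA_append, evA_append, h.qc.cz] at this
  exact ⟨_, h.gK (ltAll_zero K0_ok.2.2.1), by rw [this, mem_cent1.1 (h.evH _)]; group⟩
theorem two9 : ncl C[p] T2 = 9 := by
  have KH : h.K0 ≤ C[z] := fun _ hx => hx.1.1
  let R : ℕ → ℕ := nth 0 [0, 0, 1, 1, 2, 2, 3, 4, 4]
  let E : ℕ → ℕ := nth 0 [0, 1, 0, 1, 0, 1, 0, 0, 1]
  have R5 : ∀ i < 9, R i < 5 := by decide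
  have pz : ∀ r < 5, ∀ j, π ((kk r) * z ^ j) = evA a0 (nth [] RA2 r) := fun r hr j => by
    rw [h.mul _ (h.evH _) _ (h.QH (Q.pow_mem h.zQ j)), h.piQ (Q.pow_mem h.zQ j), mul_one, h.kpi (by omega)]
  have tz : ∀ r < 5, ∀ j, T2 ((kk r) * z ^ j) := fun r hr j =>
    .mul (Commute.pow_right (mem_cent1.1 (h.evH _)) j) ⟨_, h.kpow (by omega)⟩ ((T2.sq h.zz).pow j)
  rw [h.Cp]
  refine ncl_reps (fun i => (kk (R i)) * z ^ E i) 9 (fun i hi => ⟨mul_mem (h.kK (R5 i hi)) (Subgroup.pow_mem _ h.zK _),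
    tz _ (R5 i hi) _⟩) (fun i hi j hj c => ?_) fun x hx h2 => ?_
  · have le : ∀ i < 9, ∀ j < 9, (kk (R i)) * z ^ E i ∈ cl h.K0 ((kk (R j)) * z ^ E j) → nth 0 OW (R i) ≤ nth 0 OW (R j) := by
      rintro i hi j hj ⟨a, ha, e⟩
      refine lev_le (by have := R5 i hi; omega) ?_
      rw [← pz _ (R5 i hi) (E i), ← e, h.conj (KH ha) (mul_mem (h.evH _) (h.QH (Q.pow_mem h.zQ _))), conj_pow,
        pz _ (R5 j hj), lev_pow (by have := R5 j hj; omega)]; simp
    have : (i, j) ∈ [(1, 0), (3, 2), (5, 4), (8, 7), (6, 4), (6, 5)] := by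
      have l1 := le i hi j (by omega) c
      have l2 := le j (by omega) i hi (cl_symm c)
      clear * - hi hj l1 l2; revert l1 l2; interval_cases i <;> interval_cases j <;> decide
    simp only [List.mem_cons, Prod.mk.injEq, List.not_mem_nil, or_false] at this
    have n := h.nzK (r := 2) (by decide)
    have n' : ∀ r ∈ [0, 1, 2, 4], (kk r) * z ^ 1 ∉ cl h.K0 ((kk r) * z ^ 0) := fun r hr => by simpa using h.nzK hr
    rcases this with ⟨rfl, rfl⟩ | ⟨rfl, rfl⟩ | ⟨rfl, rfl⟩ | ⟨rfl, rfl⟩ | ⟨rfl, rfl⟩ | ⟨rfl, rfl⟩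
    · exact n' 0 (by decide) c
    · exact n' 1 (by decide) c
    · exact n' 2 (by decide) c
    · exact n' 4 (by decide) c
    · replace c : (kk 3) * z ^ 0 ∈ cl h.K0 ((kk 2) * z ^ 0) := c
      simp only [pow_zero, mul_one] at c
      exact n (cl_trans (cl_trans c h.k3z) (cl_symm (h.clz KH c)))
    · replace c : (kk 3) * z ^ 0 ∈ cl h.K0 ((kk 2) * z ^ 1) := c
      simp only [pow_zero, pow_one, mul_one] at c
      have := h.clz KH c
      rw [mul_assoc, h.zz, mul_one] at this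
      exact n (cl_trans this (cl_symm (cl_trans c h.k3z)))
  · obtain ⟨b, hb, r, hr, e⟩ := clsA2 (M22_le hx.2) (h2.imp fun m e => by rw [← h.pow (KH hx), e, h.one])
    have r5 := (RA2_ok.2.2 r hr).2.2.2.2.2.2.1 ((apA (nth_lt RA2_ok.1 r) (by decide)).1
      (mem_M22.1 (e ▸ mul_mem (mul_mem hb hx.2) (inv_mem hb))).2)
    obtain ⟨⟨y, hy⟩, e1⟩ := h.xi_surj ⟨b, hb⟩
    obtain rfl : π y = b := congrArg Subtype.val e1
    have hx' := mul_mem (mul_mem hy hx) (inv_mem hy)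
    rw [← h.conj (KH hy) (KH hx), ← h.kpi hr] at e
    obtain ⟨j, e2⟩ := h.KN h.fpf (mul_mem hx'.1.2 (inv_mem (h.kK r5).1.2)) (h.div_mem (KH hx') (h.evH _) e)
    have c : Commute z p := (mem_cent1.1 h.pH).symm
    rw [mul_inv_eq_iff_eq_mul, ← ((h.K0_comm h.fpf (h.kK r5)).pow_right j).eq, c.mul_pow, ← mul_assoc] at e2
    have := two_z (m := 3) (Commute.pow_right (mem_cent1.1 (h.K0_cent h.fpf (mul_mem (h.kK r5) (Subgroup.pow_mem _ h.zK j)))) j)
      (tz r r5 j) (by rw [pow_right_comm, h.p3', one_pow]) (by decide) (e2 ▸ h2.cj y)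
    rw [this, mul_one, pow_eq_pow_mod j (sq z ▸ h.zz)] at e2
    have c1 : x ∈ cl h.K0 ((kk r) * z ^ (j % 2)) := cl_symm ⟨y, hy, e2⟩
    by_cases l : r = 3 ∧ j % 2 = 1
    · rw [l.1, l.2, pow_one] at c1
      exact ⟨6, by decide, cl_trans (show _ ∈ cl _ ((kk 3) * z ^ 0) by simpa using h.k3z) c1⟩
    obtain ⟨i, hi, e3, e4⟩ : ∃ i < 9, R i = r ∧ E i = j % 2 := by
      have := Nat.mod_lt j (by decide : 0 < 2)
      generalize j % 2 = s at *
      clear * - l r5 this; revert l; interval_cases r <;> interval_cases s <;> decide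
    exact ⟨i, hi, by rwa [e3, e4]⟩
end S5
end H20.J4
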