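import Cfsg.Agent.H20.J4.LG
import Cfsg.Agent.H15.M.M11C

/-! The `11`-local structure. -/

set_option autoImplicit false
set_option linter.unusedSectionVars false
set_option maxRecDepth 100000
open Subgroup H16 H19 H0 H0.TR MulAction
namespace H20.J4
variable {G : Type*} [Group G]
local notation "cj" => H19.cj

theorem free_dvd [Finite G] {A U Y : Subgroup G} (h1 : A ≤ N(U)) (h2 : A ≤ N(Y)) (hY : Y ≤ U)
    (h : ∀ a ∈ A, ∀ u ∈ U, a * u * a⁻¹ = u → a = 1 ∨ u ∈ Y) : #A ∣ #U - #Y := by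
  let _ : MulAction A ((U : Set G) \ Y : Set G) :=
    { smul := fun a u => ⟨a * u * a.1⁻¹, conj_mem_of_norm (h1 a.2) u.2.1, fun e => u.2.2 (by
        simpa [mul_assoc] using conj_mem_of_norm' (h2 a.2) e)⟩
      one_smul := fun u => Subtype.ext (show (1 : G) * u * 1⁻¹ = u by simp)
      mul_smul := fun a b u => Subtype.ext (show (a * b : G) * u * (a * b : G)⁻¹ = a * (b * u * b.1⁻¹) * a.1⁻¹ by group) }
  have := Nat.card_congr (selfEquivOrbitsQuotientProd (G := A) (X := ((U : Set G) \ Y : Set G)) fun u =>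
    (eq_bot_iff_forall _).2 fun a e => Subtype.ext ((h a a.2 u u.2.1 (congrArg Subtype.val e)).resolve_right u.2.2))
  rw [Nat.card_prod, Nat.card_coe_set_eq, Set.ncard_sdiff hY] at this
  exact ⟨_, this.trans (mul_comm _ _)⟩
theorem X11_inv : ∀ a < 8192, fQ 2 a = 0 → qf a a = 0 → a = 0 ∨ a = 4096 := az_of (by decide +kernel)
def GW3 : List (List ℕ) := [[11, 3, 4, 6, 7, 6, 3, 9], [11, 3, 4, 6, 7, 6, 3, 10], [11, 3, 4, 6, 7, 6, 3, 485]]
theorem GW3_ok : (∀ r ∈ H15.XM11C.Rl, eqH 10 0 (H0.PM.flat GW3 r) [] = 0) ∧ allL (ltAll 8205) GW3 = true ∧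
    ∀ k < 3, eqH 10 0 (X11 ++ nth [] GW3 k) (nth [] GW3 k ++ rp 10 X11) = 0 := by decide +kernel
abbrev GL23 := GL (Fin 2) (ZMod 3)
def g23 (k : ℕ) : GL23 := if k = 0 then ⟨!![0, 1; 1, 0], !![0, 1; 1, 0], by decide, by decide⟩ else
  if k = 1 then ⟨!![1, 0; 2, 2], !![1, 0; 2, 2], by decide, by decide⟩ else ⟨!![2, 0; 2, 1], !![2, 0; 2, 1], by decide, by decide⟩
def TW3 : List (List ℕ) := [[], [], [], [], [], [], [], [], [], [], [], [], [0], [0, 1, 0, 2, 1], [0, 1, 2, 0, 1], [0, 1, 2, 1], [0, 1, 0, 2, 0, 1], [1, 0], [], [], [], [0, 2, 1, 2], [0, 2, 0, 1, 0, 2], [2, 0], [0, 1, 2, 1, 2, 1, 2], [1, 2, 0], [2, 1, 0], [], [], [1, 2, 1], [], [1, 0, 2, 1], [1, 0, 2, 0, 1], [], [1, 2, 0, 1], [0, 1, 0], [], [1, 2, 1, 2], [2, 1, 2, 1, 2], [0, 1, 2, 1, 2], [], [1, 0, 2, 0], [0, 2, 1, 2, 1, 2], [0, 1, 0, 2, 0], [], [], [2, 1, 2, 1], [2], [0, 1, 2, 1, 2, 1], [1, 0, 2], [], [0, 1, 2], [], [2, 0, 1, 0],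 [], [2, 1, 2], [1, 2, 1, 2, 1, 2], [], [2, 0, 1, 0, 2], [0, 1, 2, 0], [], [0, 2, 0], [0, 2, 1, 0], [], [1, 2, 1, 2, 1], [1, 2], [0, 2, 1, 2, 1], [0, 1, 0, 2], [], [0, 2], [], [0, 2, 0, 1, 0], [], [1], [2, 1], [0, 1], [], [2, 0, 1], [0, 2, 1], [0, 2, 0, 1], []]
theorem g23_ok : Rels g23 H15.XM11C.Rl ∧ allL (ltAll 3) TW3 = true ∧ ∀ a b c d : ZMod 3, a * d - b * c ≠ 0 →
    (evA g23 (nth [] TW3 (a.val + 3 * b.val + 9 * c.val + 27 * d.val))).1 = !![a, b; c, d] := by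
  unfold Rels; decide +kernel
theorem TW3_ok : ∀ k < 81, ∀ W ∈ [nth [] TW3 k], W = [] ∨ (∃ c ∈ BQ, c < 8192 ∧ apW PD (H0.PM.flat GW3 W) c ≠ c) ∨
    eqH 10 4096 (H0.PM.flat GW3 W) [] = 0 := by decide +kernel

namespace S6
variable [Finite G] [IsSimpleGroup G] {z p q : G} {Q N Q' : Subgroup G} {π μ : G → GPm} {g cq κ : ℕ → G} {e : ℕ}
  {φ : Equiv.Perm (Fin 5) →* G} (h : S6 z p Q N π g cq Q' q μ κ e φ)
include h
local notation "y" => evA (hl g cq) X11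
local notation "A" => (C[z] ⊓ C[y] : Subgroup G)
local notation "R" => (Q ⊓ C[y] : Subgroup G)
theorem gl23 : ∃ K ≤ N(zpowers y), Nonempty (K ≃* GL23) := by
  have k : ∀ B : GL23, ∃ i < 81, evA g23 (nth [] TW3 i) = B := fun B =>
    ⟨_, (by decide : ∀ a b c d : ZMod 3, a.val + 3 * b.val + 9 * c.val + 27 * d.val < 81) _ _ _ _, Units.ext
      ((g23_ok.2.2 (B 0 0) (B 0 1) (B 1 0) (B 1 1) (by rw [← Matrix.det_fin_two]; exact B.det_ne_zero)).trans
        (Matrix.eta_fin_two _).symm)⟩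
  have t : gen g23 3 = ⊤ := top_unique fun B _ => have ⟨i, _, e⟩ := k B; e ▸ evA_mem_gen _ (nth_lt g23_ok.2.1 i)
  obtain ⟨f, f1, f2⟩ := H15.XM11C.bound.exists_hom g23_ok.1 (by
    rw [t, card_top, Matrix.card_GL_field]; simp [Fin.prod_univ_two]) (g := wds (hl g cq) GW3) fun r hr =>
      (H0.PM.evA_flat ..).symm.trans (h.eq0 (GW3_ok.1 r hr))
  have inj : Function.Injective f := (injective_iff_map_eq_one f).2 fun ⟨B, hB⟩ e => by
    obtain ⟨i, hi, rfl⟩ := k B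
    rw [hom_evA f1 (nth_lt g23_ok.2.1 i), ← H0.PM.evA_flat] at e
    rcases TW3_ok i hi _ (List.mem_singleton_self _) with e1 | ⟨c, -, l, e1⟩ | e1
    · exact Subtype.ext (congrArg (evA g23) e1)
    · exact absurd ((h.fix1 (pflat_lt GW3_ok.2.1 _) l).1 (e ▸ one_mem _)) e1
    · exact absurd (by simpa [e, h.qc.cz, evA_nil] using (h.eqw' (by decide) e1).symm) h.z1
  refine ⟨f.range, f2 ▸ gen_le.2 fun k hk => norm_zp (j := 10) ?_, ⟨(MonoidHom.ofInjective inj).symm.trans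
    ((MulEquiv.subgroupCongr t).trans topEquiv)⟩⟩
  simpa only [evA_append, evA_flat_rep, wds] using h.eq0 (GW3_ok.2.2 k hk)
theorem oy : orderOf y = 11 := h.ordQ (k := 2) (c := 8) (by simp)
theorem cy : #(zpowers y) = 11 := (Nat.card_zpowers _).trans h.oy
theorem pA : p ∈ A := ⟨h.pH, mem_cent1_symm.1 (h.K_eq.ge (h.gK (by decide))).2⟩
theorem cA : #A = 264 ∧ #A * 10 = #(C[z] ⊓ N(zpowers y) : Subgroup G) := by
  obtain ⟨k, m, c1, c2, c3, c4⟩ := nzS (by norm_num) (h.evH X11) h.oy (by rw [h.cH]; decide)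
  have c5 := h.bz (l := 11) (by simp) (.refl z) (h.evH X11) h.oy
  obtain ⟨i, c6⟩ : 6 * 11 ∣ #A := Nat.Coprime.mul_dvd_of_dvd_of_dvd (by decide)
    (h.o6 ▸ orderOf_dvd_card' (mul_mem ⟨mem_cent1_self z, mem_cent1_symm.1 (h.evH X11)⟩ h.pA))
    (h.oy ▸ orderOf_dvd_card' ⟨h.evH X11, mem_cent1_self _⟩)
  have c0 := card_pos A
  have d1 := Nat.le_of_dvd (by decide) c1
  rw [h.cH, ← c2, c6] at c3
  rw [← c2, c6]
  obtain rfl | rfl | rfl | rfl : i = 1 ∨ i = 2 ∨ i = 3 ∨ i = 4 := by change _ ≤ 264 at c5; omega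
  all_goals interval_cases k <;> omega
theorem cR : #R = 8 := le_antisymm (h.stdQ (k := 2) (l := 11) (by simp)) (by
  have c := h.bndH (h.evH X11)
  have c1 := centA (l := 11) (by simp) (h.mem _ (h.evH X11)) (ord_map (by norm_num) (by
    rw [← h.pow (h.evH X11), ← h.oy, pow_orderOf_eq_one, h.one]) (fun e => by
      rw [← h.cQ, ← h.cN]; exact congrArg Subtype.val (pow_card_eq_one' (x := (⟨_, (h.ker _ (h.evH X11)).1 e⟩ : N))))
    h.oy (by decide))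
  rw [h.cA.1] at c
  have := c.trans (Nat.mul_le_mul_left _ c1)
  change _ ≤ _ * 11 at this
  omega)
theorem RA : R ≤ A := inf_le_inf_right _ h.QH
theorem AR : A ≤ N(R) := norms_inf (inf_le_left.trans h.le.norm) (inf_le_right.trans le_normalizer)
theorem pgR : PG 2 R := h.le.es.pg.of_le inf_le_left
theorem invA {j : G} (hj : j ∈ A) (h2 : j * j = 1) : j = 1 ∨ j = z := by
  have := (syl_card (k := 3) (m := 33) (by norm_num) h.RA h.cR h.cA.1 (by decide)).mem_of_normal h.AR hj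
    (piG_zpowers.1 (pg_zpowers h2))
  obtain ⟨a, ha, rfl⟩ := h.qc.surj j this.1
  rw [h.qmul ha ha, ← h.c0] at h2
  rcases X11_inv a ha (by rw [h.fQ_eq (by decide) ha, (h.fix1 (nth_lt QW_ok.1 2) ha).1 (mem_cent1_symm.1 hj.2),
    Nat.xor_self]) (h.qc.inj _ (qf_lt ha ha) _ (by decide) h2) with rfl | rfl
  exacts [.inl h.c0, .inr h.qc.cz]
theorem exists_O : ∃ O, O ⊴ C[y] ∧ Odd #O ∧ O ⊓ C[z] = zpowers y ∧ #C[y] = 24 * #O ∧
    ∀ a ∈ O, ∀ b ∈ O, a⁻¹ * b⁻¹ * a * b ∈ zpowers y := by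
  have hz : z ∈ C[y] := mem_cent1_symm.1 (h.evH X11)
  obtain ⟨O, o1, o2, o3⟩ := zstar_sub hz h.zz fun l hl e => (h.invA ⟨mem_cent1.2 e.symm,
    C[y].mul_mem (mul_mem hl hz) (inv_mem hl)⟩ (by rw [conj_mul, h.zz]; simp)).resolve_left (mt conj_eq_one_iff.1 h.z1)
  have n1 : zpowers y ≤ C[y] := zpowers_le.2 (mem_cent1_self _)
  have n2 := cent1_le_norm_zpowers y
  obtain ⟨O', e, o4, o5, o6⟩ : ∃ O', O' = O ⊔ zpowers y ∧ O' ⊴ C[y] ∧ Odd #O' ∧ zpowers y ≤ O' :=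
    ⟨_, rfl, ⟨sup_le o1.le n1, norms_sup o1.norm n2⟩, Odd.of_dvd_nat (o2.mul (by rw [h.cy]; decide))
      (card_sup_dvd (n1.trans o1.norm)), le_sup_right⟩
  have dA : O' ⊓ C[z] ≤ A := le_inf inf_le_right (inf_le_left.trans o4.le)
  have nA : A ≤ N(O' ⊓ C[z]) := norms_inf (inf_le_right.trans o4.norm) (inf_le_left.trans le_normalizer)
  have oD : Odd #(O' ⊓ C[z] : Subgroup G) := o5.of_dvd_nat (card_dvd inf_le_left)
  have d3 : ¬ 3 ∣ #(O' ⊓ C[z] : Subgroup G) := fun d => by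
    have k := le_of_prime_of_inf_ne_bot (by rw [h.cP]; norm_num) (((syl_card (k := 1) (m := 88) (by norm_num)
      (zpowers_le.2 h.pA) h.cP h.cA.1 (by decide)).inf_normal ⟨dA, nA⟩).sne_bot (by norm_num) d)
    have := card_le (H := R) fun x hx => h.fpf x hx.1 (h.pgR.cents_of_norms (PiN.of_not_dvd oD.not_two_dvd_nat) (dA.trans h.AR)
      (h.RA.trans nA) hx p (k (mem_zpowers p))).symm
    rw [h.cR, Nat.card_zpowers, orderOf_eq_prime (by rw [pow_two, h.zz]) h.z1] at this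
    omega
  have eD : O' ⊓ C[z] = zpowers y := (eq_of_le_of_card_ge (le_inf o6 (zpowers_le.2 (h.evH X11))) (by
    rw [h.cy]
    exact Nat.le_of_dvd (by decide) ((((Nat.coprime_two_right.2 oD).pow_right 3).mul_right
      ((Nat.prime_three.coprime_iff_not_dvd.2 d3).symm)).dvd_of_dvd_mul_left ((card_dvd dA).trans h.cA.1.dvd)))).symm
  have dec : ∀ l ∈ C[y], ∃ b ∈ O', z * b * z⁻¹ = b⁻¹ ∧ b⁻¹ * l ∈ C[z] := fun l hl => by
    have j2 : l * z * l⁻¹ * (l * z * l⁻¹) = 1 := by rw [conj_mul, h.zz]; simp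
    have m : z * (l * z * l⁻¹) ∈ O' := by
      simpa [inv_eq_of_mul_eq_one_right h.zz, mul_assoc] using inv_mem (e.ge (mem_sup_left (o3 l hl)))
    obtain ⟨k, e1⟩ := H10.exists_zpow_conj_of_odd h.zz j2 (o5.of_dvd_nat (orderOf_dvd_card' m))
    have e2 := (H10.conj_zpow_of_inverts (H10.inverts_left h.zz j2) k).trans (zpow_neg _ _)
    have m' := zpow_mem m k
    generalize (z * (l * z * l⁻¹)) ^ k = b at e1 e2 m'
    exact ⟨b, m', e2, mem_cent1.2 (by rw [← mul_inv_eq_iff_eq_mul, show b⁻¹ * l * z * (b⁻¹ * l)⁻¹ =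
      b⁻¹ * (l * z * l⁻¹) * b by group, ← e1]; group)⟩
  have c := card_sup_mul_inf (inf_le_right.trans o4.norm : A ≤ N(O'))
  rw [show O' ⊔ A = C[y] from le_antisymm (sup_le o4.le inf_le_right) fun l hl => by
    obtain ⟨b, hb, -, e1⟩ := dec l hl
    simpa using mul_mem (mem_sup_left hb) (mem_sup_right ⟨e1, C[y].mul_mem (inv_mem (o4.le hb)) hl⟩ : _ ∈ O' ⊔ A),
    ← inf_assoc, eD, inf_eq_left.2 n1, h.cy, h.cA.1] at c
  have ce : ∀ {c a}, c ∈ zpowers y → a ∈ C[y] → a * c = c * a := fun hc ha =>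
    mem_cent1.1 (cent1_le_cent1_of_mem_zpowers hc ha)
  have iv : ∀ a ∈ O', ∃ c ∈ zpowers y, z * a * z⁻¹ = c * a⁻¹ := fun a ha => by
    obtain ⟨b, hb, e1, e2⟩ := dec a (o4.le ha)
    have hc := eD.le ⟨O'.mul_mem (inv_mem hb) ha, e2⟩
    obtain ⟨c, rfl⟩ : ∃ c, a = b * c := ⟨b⁻¹ * a, by group⟩
    rw [inv_mul_cancel_left] at hc e2
    refine ⟨c * c, mul_mem hc hc, ?_⟩
    rw [← conj_mul, e1, ← mem_cent1.1 e2, mul_inv_cancel_right, ce hc (inv_mem (o4.le hb))]; group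
  refine ⟨O', o4, o5, eD, by omega, fun a ha b hb => ?_⟩
  obtain ⟨c, hc, e1⟩ := iv a ha
  obtain ⟨d, hd, e2⟩ := iv b hb
  obtain ⟨f, hf, e3⟩ := iv _ (mul_mem ha hb)
  rw [← conj_mul, e1, e2, mul_assoc, ← mul_assoc a⁻¹, ce hd (inv_mem (o4.le ha))] at e3
  convert mul_mem (inv_mem (mul_mem hc hd)) hf using 1
  rw [← eq_mul_inv_iff_mul_eq.1 e3]; group
theorem syl11 : ∃ U x, Syl 11 U ⊤ ∧ #U = 11 ^ 3 ∧ N(U) = N(zpowers y) ∧ #C[y] = 24 * 11 ^ 3 ∧
    #N(zpowers y) = 240 * 11 ^ 3 ∧ x ∈ U ∧ orderOf x = 11 ∧ #C[x] = 242 ∧ ∀ u ∈ U, u = 1 ∨ IsConj y u ∨ IsConj x u := by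
  obtain ⟨O, o1, o2, o3, o4, o5⟩ := h.exists_O
  obtain ⟨c1, c2⟩ := cl_full (by norm_num) h.oy h.cA.2
  have := Fact.mk (by norm_num : Nat.Prime 11)
  have c3 := Sylow.prime_pow_dvd_card_normalizer (p := 11) (n := 1) (by rw [h.card]; decide) h.cy
  rw [← c1, o4, mul_right_comm] at c3
  obtain ⟨U, hU, u1⟩ := inv_syl_exists 11 (inf_le_right.trans o1.norm : R ≤ N(O)) (h.cR ▸
    (Nat.coprime_two_right.2 o2).pow_right 3) (.inl h.pgR.sol)
  have n2 := cent1_le_norm_zpowers y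
  have u2 : zpowers y ≤ U := hU.le_of_norm' (o3.ge.trans inf_le_left) (PiN.of_card this.out h.cy)
    (hU.le.trans (o1.le.trans n2))
  have cU : #U = 11 ^ 3 := by
    obtain ⟨k, e⟩ := hU.pi.exists_card
    have d1 := hU.dvd (PiN.prime_pow this.out 2) ((by decide : (11 ^ 2).Coprime _).dvd_of_dvd_mul_left c3)
    have d2 := card_subgroup_dvd_card U
    have d3 := free_dvd u1 (inf_le_right.trans n2) u2 fun a ha u hu e => or_iff_not_imp_left.2 fun a1 => by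
      obtain ⟨j, hj, oj⟩ := exists_orderOf_eq_prime Nat.prime_two ((h.pgR.of_le (zpowers_le.2 ha)).dvd_of_ne_bot (by simpa))
      obtain rfl := (h.invA (h.RA (zpowers_le.2 ha hj)) (mul_self_of_order oj)).resolve_left (ne_one_of_order oj)
      exact o3.le ⟨hU.le hu, cent1_le_cent1_of_mem_zpowers hj (mem_cent1.2 (mul_inv_eq_iff_eq_mul.1 e).symm)⟩
    rw [e] at d1 d2 d3 ⊢
    rw [h.card] at d2
    rw [h.cR, h.cy] at d3
    have d4 := (Nat.pow_dvd_pow_iff_le_right (by decide)).1 d1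
    have d5 : k < 4 := by_contra fun n => absurd ((Nat.pow_dvd_pow 11 (not_lt.1 n)).trans d2) (by decide)
    interval_cases k <;> omega
  have sU : Syl 11 U ⊤ := syl_card (m := 65195770883604480) this.out le_top cU (by rw [card_top, h.card]; rfl) (by decide)
  have ox := h.ordV (l := 11) (c := 2) (W := W11) (by simp)
  obtain ⟨b, -, e⟩ := sU.scj_le le_top (PiN.of_card this.out ((Nat.card_zpowers _).trans ox))
  have cx := (h.x11 (h.kev h.kp (W := W11) (by decide)).1 ox).1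
  rw [cj_zpowers, zpowers_le] at e
  rw [← card_cj b, cj_cent1] at cx
  rw [← orderOf_conj' b] at ox
  generalize b * evA κ W11 * b⁻¹ = x at e cx ox
  obtain rfl : U = O := eq_of_le_of_card_ge hU.le (by
    have d1 := Set.ncard_le_ncard (show cl O x ⊆ (x * ·) '' zpowers y from fun _ ⟨a, ha, e1⟩ =>
      ⟨_, o5 x (hU.le e) _ (inv_mem ha), by rw [← e1]; group⟩)
    rw [Set.ncard_image_of_injective _ (mul_right_injective x), ← Nat.card_coe_set_eq (zpowers y : Set G),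
      SetLike.coe_sort_coe, h.cy] at d1
    have d2 : #(O ⊓ C[x] : Subgroup G) ≤ 121 := Nat.le_of_dvd (by decide) ((Nat.coprime_two_right.2
      (o2.of_dvd_nat (card_dvd inf_le_left))).dvd_of_dvd_mul_left ((card_dvd inf_le_right).trans cx.dvd))
    rw [← cl_card O x, cU]
    exact (Nat.mul_le_mul d1 d2 :))
  rw [cU] at o4
  have n3 : N(zpowers y) ≤ N(U) := fun n hn => mem_norm_iff_cj.2 ((sU.of_le o1.le le_top).eq_of_normal o1.norm
    ((sU.of_le o1.le le_top).Jnorm (cent_zpowers y ▸ norm_le_norm_cent _ hn)))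
  have k : cl N(zpowers y) x = (U : Set G) \ zpowers y := Set.eq_of_subset_of_ncard_le (fun _ ⟨a, ha, e1⟩ =>
    ⟨e1 ▸ conj_mem_of_norm (n3 ha) e, fun e2 => by
      have := card_le (cent1_le_cent1_of_mem_zpowers (show x ∈ zpowers y by
        simpa [← e1, mul_assoc] using conj_mem_of_norm' ha e2))
      omega⟩) (by
    have d1 := cl_card N(zpowers y) x
    have d2 := Nat.mul_le_mul_left (cl N(zpowers y) x).ncard (cx ▸ card_le (inf_le_right : N(zpowers y) ⊓ C[x] ≤ _))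
    rw [Set.ncard_sdiff u2, ← Nat.card_coe_set_eq (zpowers y : Set G), ← Nat.card_coe_set_eq (U : Set G),
      SetLike.coe_sort_coe, SetLike.coe_sort_coe, h.cy, cU]
    omega)
  have k1 : ∀ u ∈ U, u ∈ zpowers y ∨ IsConj x u := fun u hu => or_iff_not_imp_left.2 fun n =>
    have ⟨a, _, e⟩ := k.ge ⟨hu, n⟩; isConj_iff.2 ⟨a, e⟩
  refine ⟨U, x, sU, cU, le_antisymm (fun n hn => mem_norm_of_cj_le ?_) n3, o4, by omega, e, ox, cx, fun u hu =>
    or_iff_not_imp_left.2 fun u1 => (k1 u hu).imp_left fun e => c2 u e u1⟩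
  rw [cj_zpowers, zpowers_le]
  refine (k1 _ (conj_mem_of_norm hn (u2 (mem_zpowers _)))).resolve_right fun e => ?_
  obtain ⟨a, e⟩ := isConj_iff.1 e
  rw [← card_cj a, cj_cent1, e, ← cj_cent1, card_cj] at cx
  omega
theorem cls11 : ∃ x, orderOf x = 11 ∧ #C[x] = 242 ∧ #C[y] = 24 * 11 ^ 3 ∧ ∀ w : G, orderOf w = 11 → IsConj w x ∨ IsConj w y := by
  obtain ⟨U, x, sU, -, -, c1, -, -, ox, cx, k⟩ := h.syl11
  refine ⟨x, ox, cx, c1, fun w o => ?_⟩
  obtain ⟨b, -, e⟩ := sU.scj_le le_top (PiN.of_card (by norm_num) ((Nat.card_zpowers _).trans o))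
  have c : IsConj w (b * w * b⁻¹) := isConj_iff.2 ⟨b, rfl⟩
  rcases k _ (e (conj_mem_cj.2 (mem_zpowers w))) with e | e | e
  exacts [absurd o (by simp [conj_eq_one_iff.1 e]), .inr (c.trans e.symm), .inl (c.trans e.symm)]
end S6
end H20.J4
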