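import Cfsg.Agent.H20.J4.CE
import Cfsg.Agent.H20.J4.ME
import Cfsg.Agent.H20.J4.LH

/-! The number of conjugacy classes. -/

set_option autoImplicit false
set_option linter.unusedSectionVars false
set_option maxRecDepth 100000
open Subgroup H16 H19 H0 H0.TR Equiv
namespace H20.J4
variable {G : Type*} [Group G]

theorem sec_big [Finite G] {r k m : ℕ} {L : List ℕ} (H : r.Prime ∧ ¬ r * r ∣ Nat.card G ∧ r ∣ Nat.card G)
    (h : ∀ x : G, orderOf x = r → #C[x] = r ∧ #N(zpowers x) = r * k) (hL : 0 < k ∧ k * m = r - 1 ∧ ∀ q ∈ L, ¬ q ∣ r) :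
    ncl (⊤ : Subgroup G) (ND L) = m + ncl (⊤ : Subgroup G) (ND (r :: L)) := by
  obtain ⟨x, -, o⟩ := exists_orderOf_eq_prime (H := (⊤ : Subgroup G)) H.1 (card_top (G := G) ▸ H.2.2)
  have := ncl_prime H.1 H.2.1 o (by rw [(h x o).1, (h x o).2])
  rw [ncl_split r, ← Nat.eq_of_mul_eq_mul_left hL.1 (this.trans hL.2.1.symm)]
  refine congrArg (· + _) (ncl_congr fun u _ => ⟨fun ⟨d, _⟩ => Nat.dvd_antisymm ?_ d, fun e => ⟨e.symm.dvd, fun q hq => e.symm ▸ hL.2.2 q hq⟩⟩)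
  exact (h _ (orderOf_pow_orderOf_div (orderOf_pos u).ne' d)).1 ▸ orderOf_dvd_card' (mem_cent1.2 (pow_mul_comm' ..).symm)
theorem two_cls [Finite G] {r : ℕ} (hr : r.Prime) (h2 : ¬ r * r ∣ Nat.card G) {x : G} (o : orderOf x = r)
    (h : ncl ⊤ (fun u : G => orderOf u = r) = 2) : ∃ y y', (orderOf y = r ∧ C[y] = C[x]) ∧ (orderOf y' = r ∧ C[y'] = C[x]) ∧
      y' ∉ cl ⊤ y ∧ ∀ w : G, orderOf w = r → y ∈ cl ⊤ w ∨ y' ∈ cl ⊤ w := by
  obtain ⟨c, c', n, e⟩ := Set.ncard_eq_two.1 h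
  have k : ∀ d ∈ ({c, c'} : Set (Set G)), ∃ y, (orderOf y = r ∧ C[y] = C[x]) ∧ cl ⊤ y = d := fun d hc => by
    rw [← e, cl_prime hr h2 o] at hc
    obtain ⟨y, hy, rfl⟩ := hc
    exact ⟨y, ⟨(zp_prime hr o hy.1 hy.2).1, cent_zp (zp_prime hr o hy.1 hy.2).2⟩, rfl⟩
  obtain ⟨y, hy, rfl⟩ := k c (by simp)
  obtain ⟨y', hy', rfl⟩ := k c' (by simp)
  exact ⟨y, y', hy, hy', fun c => n (cl_eq.2 c), fun w ow => (e.le ⟨w, ⟨trivial, ow⟩, rfl⟩).imp cl_eq.1 cl_eq.1⟩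
theorem two242 [Finite G] {S : Subgroup G} (h : #S = 242) : ncl S T2 = 2 := by
  obtain ⟨j, hj, o⟩ := exists_orderOf_eq_prime Nat.prime_two (h ▸ by decide : 2 ∣ #S)
  have jj : j * j = 1 := by rw [← sq, ← o, pow_orderOf_eq_one]
  refine two2 hj jj (by rintro rfl; simp at o) fun x hx ⟨m, e⟩ => ?_
  have d : orderOf x ∣ 2 := ((Nat.Coprime.pow_left m (by decide : Nat.Coprime 2 121)).coprime_dvd_left
    (orderOf_dvd_of_pow_eq_one e)).dvd_of_dvd_mul_right (h ▸ orderOf_dvd_card' hx :)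
  refine ((Nat.dvd_prime Nat.prime_two).1 d).imp orderOf_eq_one_iff.1 fun ox => ?_
  obtain ⟨a, ha, e⟩ := zp_conj Nat.prime_two (by rw [h]; decide) hx hj ox o
  refine cl_symm ⟨a, ha, ((mem_zpowers_inv jj).1 (e.le (conj_mem_cj.2 (mem_zpowers x)))).resolve_left fun e => ?_⟩
  simp [conj_eq_one_iff.1 e] at ox
noncomputable def s5r (i : ℕ) : Perm (Fin 5) := nth 1 [1, swap 0 1, swap 0 1 * swap 2 3, swap 0 1 * swap 1 2,
  swap 0 1 * swap 1 2 * swap 3 4, swap 0 1 * swap 1 2 * swap 2 3, c5'] i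
theorem s5r_ok : (∀ i < 7, ∀ j < i, ∀ ρ, ρ * s5r j * ρ⁻¹ ≠ s5r i) ∧ ∀ σ, ∃ i < 7, ∃ ρ, ρ * s5r i * ρ⁻¹ = σ := by
  decide +kernel

namespace S6
variable [Finite G] [IsSimpleGroup G] {z p q : G} {Q N Q' : Subgroup G} {π μ : G → GPm} {g cq κ : ℕ → G} {e : ℕ}
  {φ : Perm (Fin 5) →* G} (h : S6 z p Q N π g cq Q' q μ κ e φ)
include h
local notation "τ" => wds κ TV 3
local notation "f" => φ c5'
local notation "y" => evA (hl g cq) X11
local notation "R" => (Q ⊓ C[y] : Subgroup G)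
theorem seven : ncl C[τ] (ND [7, 11, 23, 29, 31, 37, 43]) = 7 := by
  have d : ∀ x ∈ C[τ], ∃ a ∈ zpowers τ, ∃ σ, x = a * φ σ := fun x hx => by
    obtain ⟨a, ha, _, ⟨σ, rfl⟩, rfl⟩ := (mem_sup_of_norm (h.I_tau.trans (cent1_le_norm_zpowers _))).1 (h.c7.ge hx)
    exact ⟨a, ha, σ, rfl⟩
  have c : ∀ a ∈ zpowers τ, ∀ σ, φ σ ∈ C[a] := fun a ha σ => cent1_le_cent1_of_mem_zpowers ha (h.I_tau ⟨σ, rfl⟩)
  have o : ∀ σ, ND [7, 11, 23, 29, 31, 37, 43] (φ σ) := fun σ q hq d =>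
    absurd (d.trans (h.cI ▸ orderOf_dvd_card' (H := φ.range) ⟨σ, rfl⟩ :)) (by clear d; revert q; decide)
  refine ncl_reps (fun i => φ (s5r i)) 7 (fun i _ => ⟨h.I_tau ⟨_, rfl⟩, o _⟩) (fun i hi j hj ⟨x, hx, e⟩ => ?_) fun x hx n => ?_
  · obtain ⟨a, ha, σ, rfl⟩ := d x hx
    refine s5r_ok.1 i hi j hj σ (h.finj ?_)
    rw [← e, show a * φ σ * φ (s5r j) * (a * φ σ)⁻¹ = a * φ (σ * s5r j * σ⁻¹) * a⁻¹ by simp [mul_assoc],
      ← mem_cent1.1 (c a ha _), mul_inv_cancel_right]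
  · obtain ⟨a, ha, σ, rfl⟩ := d x hx
    obtain rfl : a = 1 := by_contra fun a1 => n 7 (by simp) (by
      rw [ord_sec (by norm_num) (zp_prime (by norm_num) h.o_tau ha a1).1 (c a ha σ) (o σ 7 (by simp))]; simp)
    obtain ⟨i, hi, ρ, rfl⟩ := s5r_ok.2 σ
    exact ⟨i, hi, φ ρ, h.I_tau ⟨ρ, rfl⟩, by simp⟩
theorem sylY : Syl 2 R C[y] := by
  obtain ⟨-, -, -, c, -⟩ := h.cls11
  exact syl_card (k := 3) (m := 3 * 11 ^ 3) (by norm_num) inf_le_right h.cR c (by decide)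
theorem two33 : ncl (C[y] ⊓ C[p]) T2 = 2 := by
  refine two2 ⟨mem_cent1_symm.1 (h.evH _), mem_cent1_symm.1 h.pH⟩ h.zz h.z1 fun x hx ⟨m, e⟩ => ?_
  have hA : x ∈ C[z] ⊓ C[y] := ⟨h.NP (cent1_le_norm_zpowers p hx.2), hx.1⟩
  obtain ⟨b, hb, e⟩ := T2.syl ⟨m, e⟩ hA (h.sylY.of_le h.RA inf_le_right)
  have := conj_mem_of_norm (inv_mem (h.AR hb)) e
  rw [show b⁻¹ * (b * x * b⁻¹) * b⁻¹⁻¹ = x by group] at this
  exact ((mem_zpowers_inv h.zz).1 (h.fpf x this.1 (mem_cent1.1 hx.2))).imp id fun e : x = z => e ▸ cl_self _ _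
theorem two3 : ncl C[y] T2 = 3 := by
  have l : cq 55 ^ 2 ^ 1 = z := by rw [pow_one, sq, h.qmul (by decide) (by decide), R_ok.2.1, h.qc.cz]
  have fx : ∀ a ∈ [0, 55, 472], cq a ∈ C[y] := fun a ha => mem_cent1_symm.1
    ((h.fix1 (nth_lt QW_ok.1 2) (by clear * - ha; revert a; decide)).2 (by clear * - ha; revert a; decide +kernel))
  refine ncl_reps ([1, z, cq 55].getD · 1) 3 (fun i hi => ?_) (fun i hi j hj c => ?_) fun x hx h2 => ?_
  · interval_cases i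
    exacts [⟨one_mem _, .one⟩, ⟨mem_cent1_symm.1 (h.evH _), .sq h.zz⟩, ⟨fx 55 (by decide), .of l h.zz⟩]
  · have o : ∀ i < 3, orderOf ([1, z, cq 55].getD i 1) = 2 ^ i := fun i hi => by
      interval_cases i
      exacts [orderOf_one, ord_lev (m := 0) (pow_one z) h.zz h.z1, ord_lev l h.zz h.z1]
    have := cl_ord c
    rw [o i hi, o j (by omega), Nat.pow_right_inj (by decide)] at this
    omega
  obtain ⟨b, hb, e⟩ := h2.syl hx h.sylY
  obtain ⟨a, ha, e1⟩ := h.qc.surj _ e.1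
  suffices ∃ i < 3, cq a ∈ cl C[y] ([1, z, cq 55].getD i 1) from
    this.imp fun i c => ⟨c.1, cl_trans c.2 (cl_symm ⟨b, hb, e1.symm⟩)⟩
  have := (QF_ok a ha).2 (by
    rw [h.fQ_eq (by decide) ha, (h.fix1 (nth_lt QW_ok.1 2) ha).1 (mem_cent1_symm.1 (e1 ▸ e.2)), Nat.xor_self])
  obtain rfl | rfl | k : a = 0 ∨ a = 4096 ∨ a ∈ [55, 472, 495, 4151, 4568, 4591] := by
    simp only [List.mem_cons, List.not_mem_nil, or_false] at this ⊢; omega
  · exact ⟨0, by decide, h.c0 ▸ cl_self _ _⟩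
  · exact ⟨1, by decide, h.qc.cz ▸ cl_self _ _⟩
  obtain ⟨j, hj, c, hc, k⟩ := R_ok.2.2 a k
  have := (h.cjW (W := rp j [9, 9, 9, 9] ++ [13 + c]) (by clear * - hj hc; revert c; revert j; decide) ha).2
  rw [k, evA_append, evA_flat_rep, h.ev9, evA_cons, evA_nil, hl_hi, one_mul] at this
  exact ⟨2, by decide, cl_symm ⟨_, mul_mem (fx c (by clear * - hc; revert c; decide)) (pow_mem h.pA.2 j), this⟩⟩
theorem elevenA : ncl C[y] (ND [11, 23, 29, 31, 37, 43]) = 7 := by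
  obtain ⟨-, -, -, c, -⟩ := h.cls11
  have o : orderOf (p * p) = 3 ∧ zpowers (p * p) = zpowers p := zp_prime (by norm_num) h.p3
    (mul_mem (mem_zpowers p) (mem_zpowers p)) fun e => h.p1 (by simpa [pow_succ, e] using h.p3')
  have d : ∀ S ≤ C[y], ncl S (ND [3, 11, 23, 29, 31, 37, 43]) = ncl S T2 := fun S hS =>
    nd_two (by decide +kernel) ((card_dvd_of_le hS).trans (by rw [c]; decide +kernel))
  rw [sec2 (by norm_num) (by decide +kernel) h.pA.2 (mul_mem h.pA.2 h.pA.2) h.p3 o.1 ?_ (fun x _ => h.no9 x)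
    fun w hw => cls_3 (by rw [c]; decide) h.pA.2 h.p3 hw, cent_zp o.2, d _ inf_le_left, d _ le_rfl, h.two33, h.two3]
  rintro ⟨a, ha, e⟩
  have n : a ∈ N(zpowers p) := norm_zp (j := 2) (by rw [sq, ← e]; group)
  have a1 := h.NP n
  have o := h.pi_ord (h.evH X11) (by simp) h.oy
  have : zpowers (π y) = AA ⊓ C[π y] := eq_of_le_of_card_ge (zpowers_le.2 (mem_inf.2 ⟨h.mem _ (h.evH _), mem_cent1_self _⟩))
    (by rw [Nat.card_zpowers, o]; exact centA (by simp) (h.mem _ (h.evH _)) o)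
  have := h.K0_cent h.fpf ⟨⟨a1, n⟩, (zpowers_le.2 (h.gK (W := X11) (by decide)).2 :) (this.ge ⟨h.mem _ a1, mem_cent1.2 (by
    rw [← h.mul _ a1 _ (h.evH _), ← h.mul _ (h.evH _) _ a1, mem_cent1.1 ha])⟩)⟩
  exact h.p1 (by simpa [mem_cent1.1 this] using e)
theorem ncls : Nat.card (ConjClasses G) = 62 := by
  have cG := h.card
  have b := fun d hd => h.big d hd
  have sq : ∀ {r}, ¬ r * r ∣ Nat.card G → ∀ x ∈ (⊤ : Subgroup G), ¬ r * r ∣ orderOf x := fun n x _ d =>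
    n (d.trans (orderOf_dvd_natCard x))
  have d : ∀ (S : Subgroup G) L, L ∈ [[3, 5, 7, 11, 23, 29, 31, 37, 43]] → ncl S (ND L) = ncl S T2 := fun S L hL => by
    obtain rfl := List.mem_singleton.1 hL
    exact nd_two (by decide +kernel) ((card_subgroup_dvd_card S).trans (by rw [cG]; decide +kernel))
  obtain ⟨x, ox, cx, -, k⟩ := h.cls11
  obtain ⟨U, x', sU, -, -, -, -, -, ox', -, k'⟩ := h.syl11
  obtain ⟨a, a', ⟨o1, c1⟩, ⟨o2, c2⟩, n, k7⟩ := two_cls (r := 7) (by norm_num) (by rw [cG]; decide) h.o_tau (by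
    have := ncl_prime (k := 3) (by norm_num) (by rw [cG]; decide) h.o_tau (by rw [h.n7, ← h.c7, h.card7])
    omega)
  rw [ncl_top, ncl_congr (P' := ND []) (by simp [ND]),
    sec_big (r := 43) (m := 3) ⟨by norm_num, by rw [cG]; decide⟩ (b (43, 14) (by simp)) (by decide),
    sec_big (r := 37) (m := 3) ⟨by norm_num, by rw [cG]; decide⟩ (b (37, 12) (by simp)) (by decide),
    sec_big (r := 31) (m := 3) ⟨by norm_num, by rw [cG]; decide⟩ (b (31, 10) (by simp)) (by decide),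
    sec_big (r := 29) (m := 1) ⟨by norm_num, by rw [cG]; decide⟩ (b (29, 28) (by simp)) (by decide),
    sec_big (m := 1) ⟨by norm_num, by rw [cG]; decide⟩ (fun _ => h.x23) (by decide),
    sec2 (by norm_num) (by decide +kernel) (mem_top _) (mem_top _) h.oy ox (fun c => ?_) (fun u _ => no_sq (by norm_num) sU
      (fun u hu => ?_) u) fun w _ o => ((k w o).imp cl_top.2 cl_top.2).symm,
    sec2 (by norm_num) (by decide +kernel) (mem_top _) (mem_top _) o1 o2 n (sq (by rw [cG]; decide)) fun w _ => k7 w,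
    sec1 (by norm_num) (by decide +kernel) (mem_top _) h.o_f (sq (by rw [cG]; decide)) fun w _ o => ?_,
    sec1 (by norm_num) (by decide +kernel) (mem_top _) h.p3 (fun x _ => h.no9 x) fun w _ o => cl_top.2
      (h.cls3 (orderOf_dvd_iff_pow_eq_one.1 o.dvd) (by rintro rfl; simp at o)).symm]
  · simp only [top_inf_eq]
    rw [h.elevenA, nd_two (S := C[x]) (by decide +kernel) (by rw [cx]; decide +kernel), two242 cx, c1, c2, h.seven,
      h.sec3f (by decide +kernel), d _ _ (by simp), d _ _ (by simp), d _ _ (by simp), d _ _ (by simp), h.two15, h.two7,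
      h.two9, h.two10]
  · obtain ⟨a, e⟩ := prime_cj (by norm_num) (by rw [cG]; decide) h.c_f o
    have c := isConj_iff.2 ⟨a, rfl (a := a * w * a⁻¹)⟩
    exact cl_top.2 (c.trans ((cl_full (S := ⊤) (by norm_num) h.o_f (by rw [top_inf_eq, top_inf_eq, h.card5, h.n5])).2 _
      (e.le (conj_mem_cj.2 (mem_zpowers w))) fun e => by simp [conj_eq_one_iff.1 e] at o).symm)
  · have := card_cl_cent c
    obtain ⟨-, -, -, cy, -⟩ := h.cls11
    rw [top_inf_eq, top_inf_eq, cx, cy] at this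
    omega
  · rcases k' u hu with rfl | c | c
    · simp
    · exact orderOf_dvd_iff_pow_eq_one.1 ((cl_ord (cl_top.2 c)).trans h.oy).dvd
    · exact orderOf_dvd_iff_pow_eq_one.1 ((cl_ord (cl_top.2 c)).trans ox').dvd
end S6
end H20.J4
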