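import Cfsg.Agent.H20.J4.LH

/-! A search through families of subspaces of `𝔽₂¹¹` given by bit masks. -/

set_option autoImplicit false
open H16
namespace H20.J4

/-- more than `k` of the blocks `[2ⁱ, 2ⁱ⁺¹)` are met -/
noncomputable def bg (L : List ℕ) : ℕ → ℕ → Bool :=
  List.rec (motive := fun _ => ℕ → ℕ → Bool) (fun _ _ => false) (fun p _ ih k X => Bool.rec (ih k X)
    (Nat.rec (motive := fun _ => Bool) true (fun k _ => force (Nat.mod X p) (ih k)) k) (Nat.ble p X)) L
def pl : ℕ → List ℕ
  | 0 => []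
  | n + 1 => 2 ^ 2 ^ n :: pl n
theorem bg_of {n k X : ℕ} {S : Finset ℕ} (h0 : ∀ a ∈ S, a < 2 ^ n) (h1 : ∀ a ∈ S, ∀ b ∈ S, a ^^^ b ∈ S)
    (h2 : ∀ a ∈ S, X.testBit a = true) (h3 : 2 ^ k < S.card) : bg (pl n) k X = true := by
  induction n generalizing k X S with
  | zero =>
    obtain ⟨a, ha, a0⟩ := Finset.exists_mem_ne (Nat.one_le_two_pow.trans_lt h3) 0
    exact absurd (h0 a ha) (by omega)
  | succ i ih =>
    show (Bool.rec (bg (pl i) k X) (Nat.rec (motive := fun _ => Bool) true (fun k _ => force (X % 2 ^ 2 ^ i) (bg (pl i) k)) k)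
      (Nat.ble (2 ^ 2 ^ i) X) : Bool) = true
    cases e : Nat.ble (2 ^ 2 ^ i) X
    · exact ih (fun a ha => (Nat.pow_lt_pow_iff_right one_lt_two).1 ((Nat.ge_two_pow_of_testBit (h2 a ha)).trans_lt
        (Nat.lt_of_not_le fun l => by simp [Nat.ble_eq_true_of_le l] at e))) h1 h2 h3
    cases k with
    | zero => rfl
    | succ k =>
    refine (force_eq ..).trans (ih (S := S.filter (· < 2 ^ i)) (by simp) (fun a ha b hb => ?_) (fun a ha => ?_) ?_)
    · rw [Finset.mem_filter] at *
      exact ⟨h1 a ha.1 b hb.1, Nat.xor_lt_two_pow ha.2 hb.2⟩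
    · rw [Finset.mem_filter] at ha
      simp [h2 a ha.1, ha.2]
    have e := Finset.card_filter_add_card_filter_not (s := S) (· < 2 ^ i)
    suffices (S.filter (¬ · < 2 ^ i)).card ≤ (S.filter (· < 2 ^ i)).card by omega
    rcases (S.filter (¬ · < 2 ^ i)).eq_empty_or_nonempty with e | ⟨c, hc⟩
    · rw [e]; exact Nat.zero_le _
    refine Finset.card_le_card_of_injOn (· ^^^ c) (fun a ha => ?_) fun a _ b _ e => Nat.xor_left_injective e
    simp only [Finset.coe_filter, Finset.mem_filter, Set.mem_ofPred_eq] at ha hc ⊢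
    refine ⟨h1 a ha.1 c hc.1, Nat.lt_pow_two_of_testBit _ fun j hj => ?_⟩
    have t : ∀ x ∈ S, ¬ x < 2 ^ i → x.testBit j = decide (j = i) := fun x hx h => by
      rcases hj.eq_or_lt with rfl | hj
      · simpa using Nat.testBit_of_two_pow_le_and_two_pow_add_one_gt (by omega) (h0 x hx)
      · simpa [hj.ne'] using Nat.testBit_lt_two_pow ((h0 x hx).trans_le (Nat.pow_le_pow_right two_pos hj))
    simp [t a ha.1 ha.2, t c hc.1 hc.2]

noncomputable def flt (t : ℕ → Bool) (C : List ℕ) : (List ℕ → ℕ → Bool) → Bool :=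
  List.rec (motive := fun _ => (List ℕ → ℕ → Bool) → Bool) (fun k => k [] (nat_lit 0))
    (fun d _ ih k => Bool.rec (ih k) (ih fun L m => force (Nat.succ m) (k (d :: L))) (t d)) C
theorem flt_eq (t : ℕ → Bool) (C : List ℕ) (k : List ℕ → ℕ → Bool) : flt t C k = k (C.filter t) (C.filter t).length := by
  induction C generalizing k with
  | nil => rfl
  | cons d C ih =>
    show (Bool.rec (flt t C k) (flt t C fun L m => force (Nat.succ m) (k (d :: L))) (t d) : Bool) = _
    cases e : t d <;> simp [ih, e, force_eq]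
/-- the search -/
noncomputable def dfs (o t : ℕ → Bool) (f : ℕ) : ℕ → ℕ → Bool → List ℕ → ℕ → Bool :=
  Nat.rec (motive := fun _ => ℕ → ℕ → Bool → List ℕ → ℕ → Bool) (fun _ _ _ _ _ => false) (fun _ ih W n b C l =>
    Bool.rec (List.rec (motive := fun _ => Bool) b (fun c C _ => force (Nat.pred l) fun l => force (Nat.pred n) fun m =>
      force (Nat.land W c) fun X => Bool.rec (flt (fun d => force (Nat.land X d) t) C (ih X m (b && o c)) &&
        ih W n b C l) (ih W m (b && o c) C l) (Nat.beq X W)) C) true (Nat.blt l n)) f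
theorem dfs_ok {o p t : ℕ → Bool} {f : ℕ} {S : Finset ℕ} (h1 : ∀ X : ℕ, (∀ a ∈ S, X.testBit a = true) → t X = true)
    {W n : ℕ} {b : Bool} {C : List ℕ} (h : dfs o t f W n b C C.length = true) (h2 : ∀ a ∈ S, W.testBit a = true)
    (h4 : ∀ d ∈ C, p d → ∀ a ∈ S, d.testBit a = true) (h5 : n ≤ C.countP p) : b = true ∧ ∀ d ∈ C, p d → o d = true := by
  induction f generalizing W n b C with
  | zero => exact absurd h (by simp [dfs])
  | succ f ih =>
    have l : Nat.blt C.length n = false := by
      simpa [← Bool.not_eq_true, Nat.blt_eq] using h5.trans List.countP_le_length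
    cases C with
    | nil => exact ⟨by simpa [dfs, show n = 0 by simpa using h5] using h, by simp⟩
    | cons c C =>
      replace h : (Bool.rec (flt (fun d => t (W &&& c &&& d)) C (dfs o t f (W &&& c) (n - 1) (b && o c)) &&
          dfs o t f W n b C C.length) (dfs o t f W (n - 1) (b && o c) C C.length) (Nat.beq (W &&& c) W) : Bool) = true := by
        unfold dfs at h ⊢; simp only [l, force_eq] at h ⊢; exact h
      have h6 := fun d hd => h4 d (List.mem_cons_of_mem c hd)
      have h7 : n - 1 ≤ C.countP p := by rw [List.countP_cons] at h5; split_ifs at h5 <;> omega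
      cases e : Nat.beq (W &&& c) W <;> rw [e] at h
      · simp only [Bool.and_eq_true, flt_eq] at h
        by_cases hc : p c
        · have k2 : ∀ a ∈ S, (W &&& c).testBit a = true := fun a ha => by simp [h2 a ha, h4 c (by simp) hc a ha]
          have k3 : ∀ d ∈ C, p d → t (W &&& c &&& d) = true := fun d hd e =>
            h1 _ fun a ha => by rw [Nat.testBit_and, k2 a ha, h6 d hd e a ha]; rfl
          obtain ⟨e1, e2⟩ := ih h.1 k2 (fun d hd => h6 d (List.mem_filter.1 hd).1) (by
            rw [List.countP_filter]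
            exact h7.trans (List.countP_mono_left fun d hd e => by simp [e, k3 d hd e]))
          simp only [Bool.and_eq_true] at e1
          exact ⟨e1.1, List.forall_mem_cons.2 ⟨fun _ => e1.2, fun d hd e => e2 d (List.mem_filter.2 ⟨hd, k3 d hd e⟩) e⟩⟩
        · obtain ⟨e1, e2⟩ := ih h.2 h2 h6 (by simpa [hc] using h5)
          exact ⟨e1, List.forall_mem_cons.2 ⟨fun e => absurd e hc, e2⟩⟩
      · obtain ⟨e1, e2⟩ := ih h h2 h6 h7
        simp only [Bool.and_eq_true] at e1
        exact ⟨e1.1, List.forall_mem_cons.2 ⟨fun _ => e1.2, e2⟩⟩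
theorem dfs_top {o p t : ℕ → Bool} {f : ℕ} {S : Finset ℕ} (h1 : ∀ X : ℕ, (∀ a ∈ S, X.testBit a = true) → t X = true)
    {W n : ℕ} {b : Bool} {C : List ℕ} (h : flt t C (dfs o t f W n b) = true) (h2 : ∀ a ∈ S, W.testBit a = true)
    (h4 : ∀ d ∈ C, p d → ∀ a ∈ S, d.testBit a = true) (h5 : n ≤ C.countP p) : b = true ∧ ∀ d ∈ C, p d → o d = true := by
  have k3 : ∀ d ∈ C, p d → t d = true := fun d hd e => h1 _ (h4 d hd e)
  obtain ⟨e1, e2⟩ := dfs_ok h1 (flt_eq .. ▸ h) h2 (fun d hd => h4 d (List.mem_filter.1 hd).1) (by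
    rw [List.countP_filter]
    exact h5.trans (List.countP_mono_left fun d hd e => by simp [e, k3 d hd e]))
  exact ⟨e1, fun d hd e => e2 d (List.mem_filter.2 ⟨hd, k3 d hd e⟩) e⟩

/-- bit slices -/
noncomputable def slc (j : ℕ) (L : List ℕ) : List ℕ → ℕ :=
  List.rec (motive := fun _ => List ℕ → ℕ) (fun _ => nat_lit 0) (fun c _ ih E => Nat.xor
    (Nat.mul (Nat.land (Nat.shiftRight c j) 1) (E.headD 0)) (ih E.tail)) L
theorem slc_bit (j a : ℕ) (L E : List ℕ) (x : ℕ) (h : ∀ i < L.length, (E.getD i 0).testBit a = x.testBit i) :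
    (slc j L E).testBit a = (linL L x).testBit j := by
  induction L generalizing E x with
  | nil => simp [slc]
  | cons c L ih =>
    show ((c >>> j &&& 1) * E.headD 0 ^^^ slc j L E.tail).testBit a = _
    have := h 0 (by simp)
    rw [linL_cons, Nat.testBit_xor, Nat.testBit_xor, ih E.tail (x / 2) fun i hi => by
      rw [← Nat.testBit_succ, ← h (i + 1) (by simpa using hi)]; cases E <;> simp]
    congr 1
    rw [show E.headD 0 = E.getD 0 0 by cases E <;> simp]
    rcases Nat.mod_two_eq_zero_or_one x with e | e <;> rcases Nat.mod_two_eq_zero_or_one (c >>> j) with e1 | e1 <;>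
      simp_all [Nat.testBit_eq_decide_div_mod_eq, Nat.shiftRight_eq_div_pow]
noncomputable def orS (L E : List ℕ) (n : ℕ) : ℕ := Nat.rec (motive := fun _ => ℕ) (nat_lit 0) (fun j r => Nat.lor (slc j L E) r) n
theorem orS_bit {a x : ℕ} {L E : List ℕ} (h : ∀ i < L.length, (E.getD i 0).testBit a = x.testBit i) (e : linL L x = 0) (n : ℕ) :
    (orS L E n).testBit a = false := by
  induction n with
  | zero => simp [orS]
  | succ n ih =>
    show (slc n L E ||| orS L E n).testBit a = false
    simp [ih, slc_bit n a L E x h, e]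
theorem linL_pow (L : List ℕ) (i : ℕ) : linL L (2 ^ i) = L.getD i 0 := by
  induction L generalizing i with
  | nil => simp
  | cons c L ih => cases i <;> simp [linL_cons, linL_zero, pow_succ, ih]
theorem apW_xor {P : ℕ → ℕ → ℕ} (h : ∀ k a b, P k (a ^^^ b) = P k a ^^^ P k b) (W : List ℕ) (a b : ℕ) :
    apW P W (a ^^^ b) = apW P W a ^^^ apW P W b := by
  induction W generalizing a b <;> simp [*]

end H20.J4
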