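import Cfsg.Agent.H20.J4.MD
import Cfsg.Agent.H11.SL

/-! The subgroup `2¹⁰ : L₅(2)`. -/

set_option autoImplicit false
set_option linter.unusedSectionVars false
set_option maxRecDepth 100000
open Subgroup H16 H19 H0 H0.TR MulAction
namespace H20.J4
variable {G : Type*} [Group G]
local notation "cj" => H19.cj

abbrev SL5 := Matrix.SpecialLinearGroup (Fin 5) (ZMod 2)
theorem simple5 : IsSimpleGroup SL5 :=
  have := H11.psl_simple (ι := Fin 5) (F := ZMod 2) (by simp)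
  ((QuotientGroup.quotientMulEquivOfEq (card_eq_one.1 (H11.card_center_sl.trans (by simp)))).trans
    QuotientGroup.quotientBot).symm.isSimpleGroup
theorem JP_g : ∀ d ∈ JP, (∀ k ∈ d.1 ++ d.2, k < 18) ∧ evA (wds DJ4.g JW) d.1 = evA (wds DJ4.g JW) d.2 := fun d hd => by
  have c := JP_ok
  rw [FP.run_eq, frcs_eq, frcs_eq] at c
  refine ⟨(by decide +kernel : ∀ d ∈ JP, ∀ k ∈ d.1 ++ d.2, k < 18) d hd,
    FP.RpL.pr DJ4.qok (C := JW.map (DJ4.q.ev DJ4.C)) (K := 18) (fun k hk => ?_) (allL_sound c d hd)⟩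
  rw [nth_map [] 0 _ hk]
  exact DJ4.rp.ev DJ4.qok (nth_lt JW_ok.1 k)
theorem apW_app (P : ℕ → ℕ → ℕ) (U V : List ℕ) (a : ℕ) : apW P (U ++ V) a = apW P V (apW P U a) := by
  induction U generalizing a <;> simp [*]
theorem acn_eq (c a n : ℕ) : acn c a n = apW TP (bw c n) a := by
  induction n with
  | zero => rfl
  | succ n ih =>
    show force (acn c a n) (fun r => (Bool.rec r (TP n r) (c.testBit n) : ℕ)) = _
    rw [force_eq, bw_succ, ih]; cases c.testBit n <;> simp [apW_app]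
theorem card_cos [Finite G] {Y S : Subgroup G} (h : S ≤ Y) {n : ℕ} (y : ℕ → G) (hy : ∀ i < n, y i ∈ Y)
    (hd : ∀ i < n, ∀ j < i, (y j)⁻¹ * y i ∉ S) : #S * n ≤ #Y := by
  rw [← card_mul_relIndex h]
  refine Nat.mul_le_mul_left _ (le_of_eq_of_le (Nat.card_fin n).symm (Nat.card_le_card_of_injective
    (fun i : Fin n => (QuotientGroup.mk ⟨y i, hy i i.2⟩ : Y ⧸ S.subgroupOf Y)) fun i j e => ?_))
  rcases lt_trichotomy i j with l | l | l
  exacts [absurd (QuotientGroup.eq.1 e) (hd j j.2 i l), l, absurd (QuotientGroup.eq.1 e.symm) (hd i i.2 j l)]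

noncomputable def yy (g cq κ : ℕ → G) : ℕ → G := wds (jl g cq κ) JW
noncomputable def pa (g cq κ : ℕ → G) (c : ℕ) : G := evA (yy g cq κ) (bw c 10)
noncomputable def A10 (g cq κ : ℕ → G) : Subgroup G := gen (yy g cq κ) 10
noncomputable def gb (g cq κ : ℕ → G) (k : ℕ) : G := yy g cq κ (10 + k)
noncomputable def tc (c : ℕ) : GPm := evA (wds m0 sat_W) (bw c 10)

namespace S6
variable [Finite G] [IsSimpleGroup G] {z p q : G} {Q N Q' : Subgroup G} {π μ : G → GPm} {g cq κ : ℕ → G} {e : ℕ}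
  {φ : Equiv.Perm (Fin 5) →* G} (h : S6 z p Q N π g cq Q' q μ κ e φ)
include h
local notation "M" => N(VV g cq)
local notation "y" => yy g cq κ
local notation "pt" => pa g cq κ
local notation "A" => A10 g cq κ
local notation "B" => gen (gb g cq κ) 8
theorem jrel {d : List ℕ × List ℕ} (hd : d ∈ JP) : evA y d.1 = evA y d.2 := by
  obtain ⟨f, hf⟩ := h.iso
  have k := fun U => hom_evA (f := f.toMonoidHom) hf (pflat_lt JW_ok.1 U)
  simp only [yy, ← H0.PM.evA_flat, ← k]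
  exact congrArg _ (Subtype.ext (by simpa only [H0.PM.evA_flat] using (JP_g d hd).2))
theorem y2 : ∀ i < 10, y i * y i = 1 := fun i hi => by
  simpa [evA_cons, evA_nil] using h.jrel (d := ([i, i], [])) (by simp [JP, hi])
theorem yc : ∀ i < 10, ∀ j < i, y i * y j = y j * y i := fun i hi j hj => by
  simpa [evA_cons, evA_nil] using h.jrel (d := ([j, i], [i, j])) (by simp [JP, hi, hj])
theorem px (a b : ℕ) : pt (a ^^^ b) = pt a * pt b := ev_xor h.y2 h.yc a b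
theorem mem_A {x : G} : x ∈ A ↔ ∃ a < 1024, pt a = x := ea_nf h.y2 h.yc
theorem pA' (a : ℕ) : pt a ∈ A := evA_mem_gen _ (bw_lt a 10)
theorem p0 : pt 0 = 1 := rfl
theorem sqA {x : G} (hx : x ∈ A) : x * x = 1 := by
  obtain ⟨a, -, rfl⟩ := h.mem_A.1 hx
  rw [← h.px, Nat.xor_self, h.p0]
theorem AC : A ≤ C(A) := fun _ hx => mem_cent.2 fun _ hy => comm_of_sq (fun _ => h.sqA) hy hx
theorem ppw {i : ℕ} (hi : i < 10) : pt (2 ^ i) = y i := by
  rw [pa, (by decide +kernel : ∀ i < 10, bw (2 ^ i) 10 = [i]) i hi, evA_cons, evA_nil, one_mul]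
theorem jM {W : List ℕ} (hW : ∀ k ∈ W, k < 12) : evA (jl g cq κ) W = vc g cq (twj W) * evA κ (strip W) := by
  rw [← show evA (fun k => if k < 11 then κ k else 1) W = evA κ (strip W) by
    clear hW; induction W with
    | nil => rfl
    | cons k W ih => by_cases e : k < 11 <;> simp_all [strip, evA_cons], twj, ← (h.ev_tw0 (n := 12) (fun k _ => by
      split_ifs <;> decide) (fun k _ a ha => by split_ifs with e; exacts [h.actK h.kp k e a ha, by simp [ha]]) hW).2]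
  refine evA_congr _ fun k hk => ?_
  have := hW k hk
  unfold jl; split_ifs <;> first | omega | simp [h.v0]
theorem pv : ∀ c < 2 ^ 6, pt c = vc g cq (linL B6 c) :=
  xor_ind (by rw [linL_zero, h.v0, h.p0]) (fun i hi => by
    obtain ⟨c1, c2, c3⟩ := JW_ok.2.1 i hi
    rw [h.ppw (by omega), yy, wds, h.jM (ltAll_zero c1), c2, h.kp.eq c3, evA_nil, mul_one])
    fun a _ b _ e1 e2 => by rw [h.px, linL_xor, h.vx, e1, e2]
theorem po {b : ℕ} (hb : b < 16) : pt (64 * b) ∈ M ∧ μ (pt (64 * b)) = tc (nth 0 O16 b) := by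
  have c := (JW_ok.2.2.1 b hb).2.1
  rw [pa, yy, tc, ← H0.PM.evA_flat, ← H0.PM.evA_flat, jl_ev _ _ _ (eqL_lt c).1, ← m0_eq c]
  exact h.kev h.kp (eqL_lt c).1
theorem tact {x : G} (hx : x ∈ M) {c : ℕ} (e : μ x = tc c) {a : ℕ} (ha : a < 2048) :
    ac c a < 2048 ∧ x * vc g cq a * x⁻¹ = vc g cq (ac c a) := by
  have k : Act (fun k => ConjAct.toConjAct (wds κ sat_W k)) (vc g cq) TP 2048 10 := fun k hk a ha => by
    have := h.kev h.kp (nth_lt sat_lt k)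
    rw [TP, force_eq]; exact h.mlin this.1 (nth_lt sat_lt k) this.2 (TT_ok k hk).1 (TT_ok k hk).2 ha
  have l := pflat_lt sat_lt (bw c 10)
  rw [tc, ← H0.PM.evA_flat] at e
  rw [ac, acn_eq, (h.mact hx l e ha).2, ← (h.kact h.kp l ha).2, H0.PM.evA_flat]
  exact act_cj k (bw_lt c 10) ha
theorem pdec {c : ℕ} (hc : c < 1024) : pt c = pt (64 * (c / 64)) * vc g cq (linL B6 (c % 64)) := by
  rw [← h.pv _ (by omega), ← h.px, (az_of (by decide +kernel) : ∀ c < 1024, 64 * (c / 64) ^^^ c % 64 = c) c hc]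
theorem pm {c : ℕ} (hc : c < 1024) : pt c ∈ M ∧ μ (pt c) = tc (nth 0 O16 (c / 64)) := by
  obtain ⟨e1, e2⟩ := h.po (b := c / 64) (by omega)
  rw [h.pdec hc, h.mmul _ e1 _ (h.VN (h.vmem _)), h.muV (h.vmem _), mul_one]
  exact ⟨mul_mem e1 (h.VN (h.vmem _)), e2⟩
theorem AM : A ≤ M := fun _ hx => have ⟨_, ha, e⟩ := h.mem_A.1 hx; e ▸ (h.pm ha).1
theorem pV {c : ℕ} (hc : c < 1024) (e : pt c ∈ VV g cq) : c < 64 := by
  by_contra n
  obtain ⟨i, hi, e1⟩ := (JW_ok.2.2.1 (c / 64) (by omega)).2.2.1 (by omega)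
  obtain ⟨e2, e3⟩ := h.tact (h.pm hc).1 (h.pm hc).2 (pw11 hi)
  exact e1 (h.vinj _ e2 _ (pw11 hi) (by rw [← e3, h.Vcomm e (h.vmem _), mul_inv_cancel_right]))
theorem vA {u : ℕ} (hu : u < 2048) : vc g cq u ∈ A ↔ in6 u = 0 := by
  refine ⟨fun e => ?_, fun e => by rw [← xor_zero' e, ← h.pv _ (by unfold ex; omega)]; exact h.pA' _⟩
  obtain ⟨c, hc, e⟩ := h.mem_A.1 e
  have l := h.pV hc (e ▸ h.vmem u)
  rw [← h.vinj _ (JW_ok.2.2.2.1 c l).1 _ hu ((h.pv c l).symm.trans e), in6, (JW_ok.2.2.2.1 c l).2, Nat.xor_self]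
theorem pinj : PtInj pt 1024 := fun a ha b hb e => by
  have e1 : pt (a ^^^ b) = 1 := by rw [h.px, e, h.sqA (h.pA' b)]
  have l := h.pV (Nat.xor_lt_two_pow (n := 10) ha hb) (e1 ▸ one_mem _)
  have := (JW_ok.2.2.2.1 _ l).2
  rw [h.vinj _ (JW_ok.2.2.2.1 _ l).1 0 (by decide) ((h.pv _ l).symm.trans (e1.trans h.v0.symm))] at this
  exact xor_zero' this.symm
theorem cAT : #A = 2 ^ 10 := card_pts' h.pinj fun _ => h.mem_A
theorem actB : Act (fun k => ConjAct.toConjAct (gb g cq κ k)) pt PB 1024 8 := fun k hk a ha =>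
  ⟨linL_lt (JW_ok.2.2.2.2 k hk) a, xor_ind (n := 10) (p := fun a => gb g cq κ k * pt a * (gb g cq κ k)⁻¹ = pt (PB k a))
    (by simp [PB, linL_zero, h.p0]) (fun i hi => by
      have := h.jrel (List.mem_append_right _ (List.mem_append_left _ (List.mem_map_of_mem (a := 10 * k + i) (by simp; omega))))
      rw [show (10 * k + i) % 10 = i by omega, show (10 * k + i) / 10 = k by omega] at this
      rw [h.ppw hi]
      simpa [PB, linL_pow, evA_cons, evA_nil, mul_inv_eq_iff_eq_mul, nth_eq_getD, gb, pa] using this)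
    (fun a _ b _ e1 e2 => by rw [PB, linL_xor, h.px, h.px, ← conj_mul, e1, e2]; rfl) a ha⟩
theorem BN : B ≤ N(A) := gen_le.2 fun k hk => mem_norm_of_cj_le fun x hx => by
  obtain ⟨w, hw, rfl⟩ := mem_cj'.1 hx
  obtain ⟨a, ha, rfl⟩ := h.mem_A.1 hw
  exact Set.mem_of_eq_of_mem (h.actB k hk a ha).2 (h.pA' _)
theorem clB {r : ℕ} (hr : r ∈ [0, 1, 30]) : (∀ i < 1024, pt i ∈ cl B (pt r) ↔ J4.cA i = J4.cA r) ∧
    (cl B (pt r)).ncard = cntCls J4.cA (J4.cA r) 0 1024 := cl_cls h.actB h.pinj (by decide) cA_ok fA_ok (by decide +kernel) hr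
theorem p1z : pt 1 = z := (h.pv 1 (by decide)).trans h.v1
theorem p30 : pt 30 ∈ VV g cq ∧ IsConj (vc g cq 12) (pt 30) :=
  (h.pv 30 (by decide)).symm ▸ ⟨h.vmem _, h.ty2 (JW_ok.2.2.2.1 30 (by decide)).1 cA_c.2.2.2.2.2.2.2.1⟩
theorem clN {r : ℕ} (hr : r ∈ [1, 30]) : cl N(A) (pt r) = cl B (pt r) := by
  refine Set.Subset.antisymm ?_ fun _ ⟨a, ha, e⟩ => ⟨a, h.BN ha, e⟩
  rintro _ ⟨a, ha, rfl⟩
  obtain ⟨i, hi, e⟩ := h.mem_A.1 (conj_mem_of_norm ha (h.pA' r))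
  have k : ∀ s ∈ [0, 1, 30], J4.cA i = J4.cA s → IsConj (pt s) (pt r) := fun s hs e1 =>
    have ⟨b, _, e2⟩ := ((h.clB hs).1 i hi).2 e1
    (isConj_iff.2 ⟨b, e2⟩).trans (isConj_iff.2 ⟨a, e.symm⟩).symm
  have n : ¬ IsConj (pt 1) (pt 30) := fun c => h.t_ncj ((h.p1z ▸ c).trans h.p30.2.symm)
  obtain ⟨-, -, c0, c1, c2, -⟩ := cA_c
  refine e ▸ ((h.clB (List.mem_cons_of_mem _ hr)).1 i hi).2 ?_
  rcases cA_3 i hi with rfl | e1 | e1
  · exact absurd (h.pinj 0 hi r (by simp at hr; omega) (isConj_one_right.1 (k 0 (by simp) rfl)).symm) (by simp at hr; omega)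
  all_goals simp only [List.mem_cons, List.not_mem_nil, or_false] at hr; rcases hr with rfl | rfl
  exacts [e1.trans c1.symm, absurd (k 1 (by simp) (e1.trans c1.symm)) n, absurd (k 30 (by simp) (e1.trans c2.symm)).symm n,
    e1.trans c2.symm]
theorem cN1 : (cl N(A) (pt 1)).ncard = 155 ∧ (cl N(A) (pt 30)).ncard = 868 := by
  rw [h.clN (by simp), h.clN (by simp), (h.clB (by simp)).2, (h.clB (by simp)).2, cA_c.2.2.2.1, cA_c.2.2.2.2.1]
  exact ⟨cA_c.1, cA_c.2.1⟩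
theorem isoB : ∃ f : SL5 →* G, f.range = B ∧ C(A).comap f = ⊥ ∧
    ∀ U V, eqL H15.XL52.P 8 H15.XL52.B U V = 0 → evA (gb g cq κ) U = evA (gb g cq κ) V := by
  obtain ⟨_, s, D, -⟩ := H15.MM.md_sl H15.XL52.md
  obtain ⟨f, f1, f2⟩ := H15.XL52.bound.exists_hom (rels_of_all D.act (fun a _ e => D.base a (mem_top a) fun b hb =>
    e b (ltAll_zero D.ltB b hb)) (FixUpTo.first H15.XL52.rf)) (by rw [D.top, card_top, D.card]) (g := gb g cq κ)
      fun r hr => (evA_map y _ r).symm.trans (h.jrel (List.mem_append_left _ (List.mem_map_of_mem hr)))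
  let F : SL5 →* G := f.comp ((MulEquiv.subgroupCongr D.top).trans topEquiv).symm.toMonoidHom
  have r : F.range = B := by rw [MonoidHom.range_comp, MonoidHom.range_eq_top.2 (MulEquiv.surjective _), ← f2, f.range_eq_map]
  have : (C(A).comap F).Normal := ⟨fun a ha b => by
    simpa using conj_mem_of_norm (norms_cent h.BN (r ▸ ⟨b, rfl⟩)) ha⟩
  refine ⟨F, r, (simple5.eq_bot_or_eq_top_of_normal _ this).resolve_right fun e => ?_, fun U V e => ?_⟩
  · obtain ⟨b, hb⟩ : gb g cq κ 7 ∈ F.range := r ▸ mem_gen _ (by decide)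
    obtain ⟨e1, e2⟩ := h.actB 7 (by decide) 1 (by decide)
    exact cA_c.2.2.2.2.2.2.2.2.2.2.1 (h.pinj _ e1 _ (by decide) (e2.symm.trans (mul_inv_eq_iff_eq_mul.2
      (mem_cent.1 (Set.mem_of_eq_of_mem hb.symm (e.ge (mem_top b))) _ (h.pA' 1)).symm)))
  · rw [← hom_evA f1 (eqL_lt e).1, ← hom_evA f1 (eqL_lt e).2]
    exact congrArg f (Subtype.ext (eqL_sound D.act D.ltB (D.base.mono le_top) e))
theorem BC : B ⊓ C(A) = ⊥ ∧ Nonempty (B ≃* SL5) := by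
  obtain ⟨f, f1, f2, -⟩ := h.isoB
  refine f1 ▸ ⟨(eq_bot_iff_forall _).2 ?_, ⟨(MonoidHom.ofInjective ((injective_iff_map_eq_one f).2 fun a e =>
    mem_bot.1 (f2.le (show f a ∈ C(A) from e ▸ one_mem _)))).symm⟩⟩
  rintro _ ⟨⟨a, rfl⟩, e⟩
  rw [mem_bot.1 (f2.le e), map_one]
theorem a6 : pt 64 ∈ M ∧ μ (pt 64) = tc 512 := h.po (b := 1) (by decide)
theorem a6v {v : ℕ} (hv : v < 2048) : vc g cq v * pt 64 * (vc g cq v)⁻¹ = vc g cq (ac 512 v ^^^ v) * pt 64 := by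
  rw [inv_eq_of_mul_eq_one_right (h.vv v), Nat.xor_comm, h.vx, ← (h.tact h.a6.1 h.a6.2 hv).2]; group
theorem cX : #(N(A) ⊓ C[pt 30] : Subgroup G) ≤ 2 ^ 10 * 11520 := by
  obtain ⟨c1, c2⟩ := h.ctV h.p30.1 h.p30.2
  have k := card_cos (S := C[pt 30] ⊓ N(A ⊓ VV g cq)) inf_le_left (n := 77) (wds κ HX) (fun i hi => by
    rw [h.pv 30 (by decide)]
    exact h.kfix (fun k hk => (eqL_lt (HX_ok i hi).2.1).1 k (by simp [hk])) (JW_ok.2.2.2.1 30 (by decide)).1 (HX_ok i hi).1)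
    fun i hi j hj e => by
      obtain ⟨k, hk, e1⟩ := (HX_ok i hi).2.2 j hj
      have l : ∀ k ∈ nth [] HX i ++ iw (nth [] HX j), k < 11 := fun k hk => (List.mem_append.1 hk).elim
        (fun t => (eqL_lt (HX_ok i hi).2.1).1 k (by simp [t])) fun t => (eqL_lt (HX_ok j (by omega)).2.1).1 k (by simp [t])
      have t := Nat.pow_lt_pow_right (by decide : 1 < 2) hk
      obtain ⟨e2, e3⟩ := h.kact h.kp l (JW_ok.2.2.2.1 _ t).1
      rw [evA_append, eq_inv_of_mul_eq_one_left ((evA_append ..).symm.trans (h.kp.eq (HX_ok j (by omega)).2.1))] at e3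
      exact e1 ((h.vA e2).1 (e3 ▸ (conj_mem_of_norm e.2 ⟨h.pv _ t ▸ h.pA' _, h.vmem _⟩).1))
  have l : N(A) ⊓ C[pt 30] ≤ C[pt 30] ⊓ N(A ⊓ VV g cq) := le_inf inf_le_right (norms_inf inf_le_left (inf_le_right.trans c1))
  by_contra n
  have := ((eq_of_card_lt l (by omega)).ge (x := vc g cq 512) ⟨h.VC h.p30.1 (h.vmem _), cent_le_norm _ (mem_cent.2 fun _ hx =>
    h.Vcomm hx.2 (h.vmem _))⟩).1
  exact cA_c.2.2.2.2.2.2.2.2.2.1 ((h.vA (by decide)).1 (cA_c.2.2.2.2.2.2.2.2.1 ▸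
    (mul_mem_cancel_right (h.pA' 64)).1 (h.a6v (v := 512) (by decide) ▸ conj_mem_of_norm this (h.pA' 64))))
theorem NA : B ⊔ A = N(A) := by
  refine eq_of_le_of_card_ge (sup_le h.BN le_normalizer) ?_
  obtain ⟨e1, ⟨f⟩⟩ := h.BC
  obtain ⟨_, s, D, -⟩ := H15.MM.md_sl H15.XL52.md
  rw [sup_comm, card_sup_of_disjoint h.BN (by rw [inf_comm]; exact le_bot_iff.1 (e1 ▸ inf_le_inf_left _ h.AC)), h.cAT,
    Nat.card_congr f.toEquiv, D.card, ← cl_card N(A) (pt 30), h.cN1.2]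
  have := h.cX
  omega
theorem CA : C(A) = A := le_antisymm (fun x hx => by
  obtain ⟨b, hb, a, ha, rfl⟩ := (mem_sup_of_norm' h.BN).1 (h.NA.ge (cent_le_norm _ hx))
  rwa [mem_bot.1 (h.BC.1.le ⟨hb, (mul_mem_cancel_right (h.AC ha)).1 hx⟩), one_mul]) h.AC
theorem irr {W : Subgroup G} (h1 : W ≤ A) (h2 : N(A) ≤ N(W)) : W = ⊥ ∨ W = A := by
  refine (eq_or_ne W ⊥).imp_right fun n => eq_of_card_lt h1 ?_
  obtain ⟨⟨w, hw⟩, n⟩ := ne_bot_iff_exists_ne_one.1 n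
  obtain ⟨i, hi, rfl⟩ := h.mem_A.1 (h1 hw)
  obtain ⟨-, -, -, c1, c2, c3, c4, -⟩ := cA_c
  have k : ∀ r ∈ [0, 1, 30], ∀ i < 1024, J4.cA i = J4.cA r → (pt i ∈ W ↔ pt r ∈ W) := fun r hr i hi e =>
    have ⟨a, ha, e⟩ := ((h.clB hr).1 i hi).2 e
    e ▸ (mem_normalizer_iff.1 (h2 (h.BN ha)) _).symm
  have t : pt 30 ∈ W := by
    rcases cA_3 i hi with rfl | e | e
    · exact absurd rfl n
    · have := (k 1 (by simp) i hi (e.trans c1.symm)).1 hw
      exact (k 30 (by simp) _ (by decide) (c4.trans c2.symm)).1 (h.px 1 32 ▸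
        mul_mem this ((k 1 (by simp) 32 (by decide) (c3.trans c1.symm)).2 this))
    · exact (k 30 (by simp) i hi (e.trans c2.symm)).1 hw
  have : (cl N(A) (pt 30)).ncard ≤ #W := Set.ncard_le_ncard fun _ ⟨a, ha, e⟩ => e ▸ conj_mem_of_norm (h2 ha) t
  rw [h.cN1.2] at this
  rw [h.cAT]; omega
end S6

end H20.J4
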