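import Cfsg.Agent.H20.J4.MB

/-! Uniqueness of the self-centralizing elementary abelian subgroups of order `2¹⁰`. -/

set_option autoImplicit false
set_option linter.unusedSectionVars false
set_option maxRecDepth 100000
open Subgroup H16 H19 H0 H0.TR MulAction
namespace H20.J4
variable {G : Type*} [Group G]
local notation "cj" => H19.cj
local notation "t" => wds m0 sat_W

theorem bw_big {b j n : ℕ} (hb : b < 2 ^ j) (h : j ≤ n) : bw b n = bw b j := by
  induction h with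
  | refl => rfl
  | step h ih => rw [bw_succ, Nat.testBit_lt_two_pow (hb.trans_le (Nat.pow_le_pow_right two_pos h)), if_neg (by simp), ih]
theorem pcT : PC0 t 10 2 :=
  have k := (sa_pc md24).toPC0
  ⟨k.pos, fun j hj a ha l => by simpa [sub_wds m0 sat_lt] using (mem_gen_sub m0 sat_lt).1 (k.comm j hj a ha l),
    fun j hj => by simpa [sub_wds m0 sat_lt] using (mem_gen_sub m0 sat_lt).1 (k.pow j hj)⟩
theorem tc_nf {j : ℕ} (hj : j ≤ 10) {u : GPm} : u ∈ gen t j ↔ ∃ b < 2 ^ j, tc b = u :=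
  ⟨fun hu => have ⟨b, hb, e⟩ := pc_nf pcT hj hu; ⟨b, hb, by rw [tc, bw_big hb hj, e]⟩,
    fun ⟨b, hb, e⟩ => by rw [← e, tc, bw_big hb hj]; exact evA_mem_gen _ (bw_lt b j)⟩
theorem it_sh {c : ℕ} : it ES' c >>> 2048 = c := by
  have k : ∀ (L E : List ℕ) (j : ℕ), (∀ x ∈ E, x < 2 ^ 2048) → slc j L E < 2 ^ 2048 := fun L E j h => by
    induction L generalizing E with
    | nil => exact Nat.two_pow_pos _
    | cons c L ih =>
      refine Nat.xor_lt_two_pow ((Nat.mul_le_mul_right _ Nat.and_le_right).trans_lt ?_) (ih _ fun x hx => h x (List.mem_of_mem_tail hx))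
      cases E with
      | nil => exact Nat.two_pow_pos _
      | cons x E => simpa using h x (by simp)
  have k2 : ∀ (L : List ℕ) (n : ℕ), orS L ES' n < 2 ^ 2048 := fun L n => by
    induction n with
    | zero => exact Nat.two_pow_pos _
    | succ n ih => exact Nat.or_lt_two_pow (k _ _ _ (by decide +kernel)) ih
  rw [it, frcs_eq]
  show (_ ^^^ _ ||| c <<< 2048) >>> 2048 = c
  rw [Nat.shiftRight_or_distrib, Nat.shiftLeft_shiftRight, Nat.shiftRight_eq_div_pow,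
    Nat.div_eq_of_lt (Nat.xor_lt_two_pow (by decide +kernel) (k2 _ _)), Nat.zero_or]
theorem al_bit {a : ℕ} (ha : a < 2048) : al.testBit a = true := by
  rw [show al = 2 ^ 2048 - 1 by decide +kernel, Nat.testBit_two_pow_sub_one, decide_eq_true ha]
theorem ac_xor (c a b : ℕ) : ac c (a ^^^ b) = ac c a ^^^ ac c b := by
  have k : ∀ W : List ℕ, (∀ k ∈ W, k < 10) → ∀ a b, apW TP W (a ^^^ b) = apW TP W a ^^^ apW TP W b := fun W hW => by
    induction W with
    | nil => simp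
    | cons k W ih =>
      intro a b
      simp only [apW_cons, TP, force_eq, ht_eq (TT_ok k (hW k (by simp))).1, linL_xor]
      exact ih (fun j hj => hW j (by simp [hj])) _ _
  simpa only [ac, acn_eq] using k _ (bw_lt c 10) a b
theorem it_bit {c a : ℕ} (ha : a < 2048) (e : ac c a = a) : (it ES' c).testBit a = true := by
  have := xor_ind (n := 11) (p := fun a => linL ((List.range 11).map fun i => ac c (2 ^ i) ^^^ 2 ^ i) a = ac c a ^^^ a)
    (by rw [linL_zero, Nat.xor_zero]; simpa using (ac_xor c 0 0).symm) (fun i hi => by simp [linL_pow, hi])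
    (fun a _ b _ e1 e2 => by rw [linL_xor, e1, e2, ac_xor]; simp only [Nat.xor_assoc, Nat.xor_left_comm]) a ha
  rw [it, frcs_eq, Nat.lor_eq, Nat.xor_eq, Nat.testBit_or, Nat.testBit_xor, al_bit ha,
    orS_bit (x := a) (fun i hi => ?_) (by rw [this, e, Nat.xor_self]), Bool.xor_false, Bool.true_or]
  have := ES_ok i (by simpa using hi)
  generalize ES'.getD i 0 = m at *
  rw [force_eq] at this
  have := Nat.mod_two_eq_zero_iff_testBit_zero.1 ((Nat.and_one_is_mod _).symm.trans (allZ_sound0 this a ha))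
  rw [Nat.xor_eq, Nat.testBit_xor, Nat.shiftRight_eq, Nat.shiftRight_eq, Nat.testBit_shiftRight, Nat.testBit_shiftRight] at this
  simpa using this

namespace S6
variable [Finite G] [IsSimpleGroup G] {z p q : G} {Q N Q' : Subgroup G} {π μ : G → GPm} {g cq κ : ℕ → G} {e : ℕ}
  {φ : Equiv.Perm (Fin 5) →* G} (h : S6 z p Q N π g cq Q' q μ κ e φ)
include h
local notation "M" => N(VV g cq)
local notation "pt" => pa g cq κ
local notation "A" => A10 g cq κ
theorem inIV {b : ℕ} (hb : b < 1024) (e : tc b * tc b = 1) : b = 0 ∨ b ∈ IV := by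
  refine (IV_ok b hb).resolve_left fun n => n ?_
  obtain ⟨x, hx, e1⟩ := h.msurj (a := tc b) (gen_m0 ▸ gen_wds_le sat_lt 10 ((tc_nf le_rfl).2 ⟨b, hb, rfl⟩))
  obtain ⟨c1, c2⟩ := h.tact hx e1 (a := 516) (by decide)
  obtain ⟨c3, c4⟩ := h.tact hx e1 c1
  have := h.Vcomm ((h.mker _ (mul_mem hx hx)).1 (by rw [h.mmul _ hx _ hx, e1, e])) (h.vmem 516)
  exact h.vinj _ c3 _ (by decide) (by rw [← c4, ← c2]; exact Eq.trans (by group) (mul_inv_eq_iff_eq_mul.2 this))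
theorem no128 {B : Subgroup GPm} (h2 : ∀ x ∈ B, x * x = 1) : ∀ j ≤ 4, B ≤ gen t (6 + j) → #B ≤ 96 := fun j hj hB => by
  induction j with
  | zero => exact (card_le hB).trans ((pcT.card_le' (by decide)).trans (by decide))
  | succ j ih =>
    by_cases e : B ≤ gen t (6 + j)
    · exact ih (by omega) e
    obtain ⟨x, hx, n⟩ := SetLike.not_le_iff_exists.1 e
    set L := IV.filter fun b => 2 ^ (6 + j) ≤ b ∧ b < 2 ^ (7 + j)
    have k : ∀ y ∈ B, y ∉ gen t (6 + j) → ∃ b ∈ L, tc b = y := fun y hy n => by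
      obtain ⟨b, hb, rfl⟩ := (tc_nf (by omega)).1 (hB hy)
      have l : 2 ^ (6 + j) ≤ b := not_lt.1 fun l => n ((tc_nf (by omega)).2 ⟨b, l, rfl⟩)
      exact ⟨b, List.mem_filter.2 ⟨(h.inIV (hb.trans_le (Nat.pow_le_pow_right (n := 2) two_pos (by omega : _ ≤ 10)))
        (h2 _ hy)).resolve_left (by have := Nat.two_pow_pos (6 + j); omega), by simpa [l, show 7 + j = 6 + (j + 1) by omega] using hb⟩, rfl⟩
    have := (card_cover (f := fun b => x⁻¹ ^ (b % 2) * tc (b / 2)) (L := L.map (2 * ·) ++ L.map (2 * · + 1)) fun y (hy : y ∈ B) => by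
      by_cases e : y ∈ gen t (6 + j)
      · obtain ⟨b, hb, e⟩ := k _ (mul_mem hx hy) fun s => n ((mul_mem_cancel_right e).1 s)
        exact ⟨2 * b + 1, by simp [hb], by simp [Nat.mul_add_div, e]⟩
      · obtain ⟨b, hb, e⟩ := k y hy e
        exact ⟨2 * b, by simp [hb], by simp [e]⟩).1
    have : L.length ≤ 48 := IV_c.2 j hj
    simp only [List.length_append, List.length_map] at *
    omega
theorem img16 {X : Subgroup G} (hX : X ≤ M) (hT : h.mimg X ≤ gen t 10) (h2 : ∀ x ∈ X, x * x = 1) (c : #X = 2 ^ 10)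
    (hC : C(X) = X) : (∀ x ∈ X, ∃ b < 16, μ x = tc (nth 0 O16 b)) ∧ ∀ b ∈ O16, ∃ x ∈ X, μ x = tc b := by
  classical
  have s2 : ∀ y ∈ h.mimg X, y * y = 1 := fun y hy => by
    obtain ⟨x, hx, e, rfl⟩ := h.mem_mimg.1 hy
    rw [← h.mmul _ e _ e, h2 x hx, h.mone]
  have c1 := h.card_mimg hX
  obtain ⟨r, hr, c2⟩ := (Nat.dvd_prime_pow Nat.prime_two).1 (Dvd.intro _ (c1.trans c))
  have r6 : r ≤ 6 := by
    have := h.no128 s2 4 le_rfl hT
    rw [c2] at this
    exact not_lt.1 fun l => absurd ((Nat.pow_le_pow_right two_pos l).trans this) (by decide)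
  have r0 : r ≠ 0 := fun e => by
    have : X ≤ VV g cq := fun x hx => (h.mker x (hX hx)).1 (mem_bot.1 ((card_eq_one.1 (by rw [c2, e]; rfl)).le
      (h.mem_mimg.2 ⟨x, hx, hX hx, rfl⟩)))
    have := card_le ((h.cV.ge.trans (centralizer_le this)).trans hC.le)
    rw [h.cardV, c] at this; omega
  let S := (Finset.range 2048).filter fun a => vc g cq a ∈ X
  have c3 : #(X ⊓ VV g cq : Subgroup G) ≤ S.card := by
    simpa using (card_cover (f := vc g cq) (L := S.toList) fun x (hx : x ∈ X ⊓ VV g cq) =>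
      have ⟨a, ha, e⟩ := h.vsurj hx.2; ⟨a, by simpa [S, ha, e] using hx.1, e⟩).1
  have hS : ∀ a ∈ S, a < 2048 ∧ vc g cq a ∈ X := by simp [S]
  have d : ds r = true := by
    interval_cases r
    exacts [absurd rfl r0, ds_1.1, ds_1.2.1, ds_1.2.2.1, ds_1.2.2.2, ds_5, ds_6]
  simp only [ds, frcs_eq, force_eq] at d
  let P : ℕ → Bool := fun b => tc b ∈ h.mimg X
  have cv : ∀ y ∈ h.mimg X, ∃ b ∈ 0 :: IV.filter P, tc b = y := fun y hy => by
    obtain ⟨b, hb, rfl⟩ := (tc_nf le_rfl).1 (hT hy)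
    exact ⟨b, by simpa [P, hy] using h.inIV hb (s2 _ hy), rfl⟩
  obtain ⟨e1, e2⟩ := dfs_top (p := fun d => P (d >>> 2048)) (S := S) (fun Y hY => bg_of (n := 11) (fun a ha => (hS a ha).1)
    (fun a ha b hb => by
      simpa [S, h.vx, mul_mem (hS a ha).2 (hS b hb).2] using Nat.xor_lt_two_pow (n := 11) (hS a ha).1 (hS b hb).1) hY (by
      rw [c, c2] at c1
      interval_cases r <;> omega)) d (fun a ha => al_bit (hS a ha).1) (fun _ hd e a ha => by
      obtain ⟨b, hb, rfl⟩ := List.mem_map.1 hd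
      obtain ⟨x, hx, -, e⟩ := h.mem_mimg.1 (of_decide_eq_true (it_sh ▸ e))
      obtain ⟨l, e⟩ := h.tact (hX hx) e (hS a ha).1
      exact it_bit (hS a ha).1 (h.vinj _ l _ (hS a ha).1 (by rw [← e, comm_of_sq h2 hx (hS a ha).2, mul_inv_cancel_right])))
    (by rw [List.countP_map, List.countP_eq_length_filter]; simpa [Function.comp_def, it_sh] using c2.ge.trans (card_cover cv).1)
  obtain rfl : r = 4 := by simpa using e1
  have cw : ∀ y ∈ h.mimg X, ∃ b ∈ O16, tc b = y := fun y hy => by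
    obtain ⟨b, hb, rfl⟩ := cv y hy
    refine ⟨b, (List.mem_cons.1 hb).elim (fun e => e ▸ by decide) fun hb => ?_, rfl⟩
    simpa [it_sh] using e2 _ (List.mem_map_of_mem (List.mem_filter.1 hb).1) (by simpa [it_sh] using (List.mem_filter.1 hb).2)
  refine ⟨fun x hx => ?_, fun b hb => have ⟨x, hx, _, e⟩ := h.mem_mimg.1 ((card_cover cw).2 c2.ge b hb); ⟨x, hx, e⟩⟩
  obtain ⟨b, hb, e⟩ := cw _ (h.mem_mimg.2 ⟨x, hx, hX hx, rfl⟩)
  obtain ⟨i, hi, rfl⟩ := (by decide +kernel : ∀ b ∈ O16, ∃ i < 16, nth 0 O16 i = b) b hb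
  exact ⟨i, hi, e.symm⟩
theorem fin1 {X : Subgroup G} (hX : X ≤ M) (h2 : ∀ x ∈ X, x * x = 1) (h3 : ∀ x ∈ X, ∃ b < 16, μ x = tc (nth 0 O16 b))
    (h4 : ∃ x ∈ X, μ x = tc 8) (h5 : pt 64 ∈ X) : X ≤ A := fun x hx => by
  obtain ⟨b, hb, e⟩ := h3 x hx
  obtain ⟨c1, c2⟩ := h.po hb
  obtain ⟨u, hu, e1⟩ := h.vsurj (h.mdiv (hX hx) c1 (e.trans c2.symm))
  obtain rfl := eq_inv_mul_iff_mul_eq.1 e1
  have k : ∀ {y : G} {c : ℕ}, y ∈ M → μ y = tc c → y * vc g cq u = vc g cq u * y → ac c u = u := fun hy e e1 =>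
    h.vinj _ (h.tact hy e hu).1 _ hu (by rw [← (h.tact hy e hu).2, e1, mul_inv_cancel_right])
  have k1 := (F1_ok u hu (k h.a6.1 h.a6.2 (mul_left_cancel (a := pt (64 * b)) (by
    rw [← mul_assoc, comm_of_sq (fun _ => h.sqA) (h.pA' _) (h.pA' 64), mul_assoc, comm_of_sq h2 h5 hx, mul_assoc])))).2
  refine mul_mem (h.pA' _) ((h.vA hu).2 (k1.resolve_right fun n => ?_))
  by_cases l : 2 ≤ b
  · exact n b hb l (k c1 c2 (by
      rw [← inv_eq_of_mul_eq_one_right (h2 _ hx), mul_inv_rev, inv_eq_of_mul_eq_one_right (h.vv u),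
        inv_eq_of_mul_eq_one_right (h.sqA (h.pA' _))]))
  obtain ⟨y, hy, e⟩ := h4
  refine n 2 (by decide) le_rfl (k (hX hy) e (comm_of_sq h2 hy ((mul_mem_cancel_left ?_).1 hx)))
  interval_cases b
  exacts [one_mem X, h5]
theorem uq10 {X : Subgroup G} (h2 : ∀ x ∈ X, x * x = 1) (c : #X = 2 ^ 10) (hC : C(X) = X) : ∃ a, cj a X = A := by
  obtain ⟨a, e⟩ := h.pgM (pg_sq h2)
  obtain ⟨_, hb0, e2⟩ := (syl_card Nat.prime_two (gen_m0 ▸ gen_wds_le sat_lt 10) card_sat (card_M24.trans (by decide :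
    _ = 2 ^ 10 * 239085)) (by decide)).scj_le (h.mimg_le (cj a X)) (((pg_sq h2).J a).dvd (Dvd.intro _ (h.card_mimg e)))
  obtain ⟨b, hb, rfl⟩ := h.msurj hb0
  have e3 : cj (b * a) X ≤ M := cj_mul b a X ▸ cj_le_of_mem hb e
  have e4 : h.mimg (cj (b * a) X) ≤ gen t 10 := fun y hy => by
    obtain ⟨x, hx, -, rfl⟩ := h.mem_mimg.1 hy
    obtain ⟨w, hw, rfl⟩ := mem_cj'.1 (cj_mul b a X ▸ hx)
    exact h.mconj hb (e hw) ▸ e2 (conj_mem_cj.2 (h.mem_mimg.2 ⟨w, hw, e hw, rfl⟩))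
  have s2 := sq_cj h2 (b * a)
  have s3 : C(cj (b * a) X) = cj (b * a) X := by rw [← cj_cent, hC]
  have s4 := (card_cj (b * a) X).trans c
  obtain ⟨s5, s6⟩ := h.img16 e3 e4 s2 s4 s3
  suffices ∃ v, cj v (cj (b * a) X) = A by simpa only [← cj_mul] using this.imp' (· * (b * a)) fun _ e => (cj_mul ..).trans e
  generalize cj (b * a) X = Y at *
  obtain ⟨x, hx, e5⟩ := s6 512 (by decide)
  obtain ⟨u, hu, e6⟩ := h.vsurj (h.mdiv (e3 hx) h.a6.1 (e5.trans h.a6.2.symm))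
  obtain rfl := eq_inv_mul_iff_mul_eq.1 e6
  have e7 : pt 64 * vc g cq u = vc g cq u * pt 64 := by
    rw [← inv_eq_of_mul_eq_one_right (s2 _ hx), mul_inv_rev, inv_eq_of_mul_eq_one_right (h.vv u),
      inv_eq_of_mul_eq_one_right (h.sqA (h.pA' _))]
  obtain ⟨c1, c2⟩ := h.tact h.a6.1 h.a6.2 hu
  obtain ⟨v, hv, e8⟩ := (F1_ok u hu (h.vinj _ c1 _ hu (by rw [← c2, e7, mul_inv_cancel_right]))).1
  have l : ex (ac 512 v ^^^ v ^^^ u) < 64 := by unfold ex; omega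
  have e9 : vc g cq (ac 512 v ^^^ v ^^^ u) ∈ Y := s3.le (mem_cent.2 fun y hy => by
    obtain ⟨b, hb, e⟩ := s5 y hy
    rw [← xor_zero' e8, ← mul_inv_eq_iff_eq_mul, (h.tact (e3 hy) e (JW_ok.2.2.2.1 _ l).1).2, (JW_ok.2.2.1 b hb).2.2.2 _ l])
  have k : ∀ y ∈ Y, μ ((vc g cq v)⁻¹ * y * (vc g cq v)⁻¹⁻¹) = μ y := fun y hy => by
    simp [h.mconj (h.VN (inv_mem (h.vmem v))) (e3 hy), h.muV (inv_mem (h.vmem v)), -inv_inv]
  refine ⟨(vc g cq v)⁻¹, eq_of_le_of_card_ge (h.fin1 (cj_le_of_mem (h.VN (inv_mem (h.vmem v))) e3) (sq_cj s2 _) (fun y hy => ?_)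
    (have ⟨y, hy, e⟩ := s6 8 (by decide); ⟨_, conj_mem_cj.2 hy, (k y hy).trans e⟩) (mem_cj.2 ?_)) (by rw [card_cj, s4, h.cAT])⟩
  · obtain ⟨w, hw, rfl⟩ := mem_cj'.1 hy
    exact k w hw ▸ s5 w hw
  · have := mul_mem e9 hx
    rw [e7, ← mul_assoc, ← h.vx, Nat.xor_assoc, Nat.xor_self, Nat.xor_zero, ← h.a6v (by simp at hv; omega)] at this
    rwa [inv_inv]
end S6

end H20.J4
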